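import Mathlib

/-! Automorphisms fixing a Sylow subgroup of a group with self-centralizing `O_p`. -/

set_option autoImplicit false

namespace Cfsg.Agent.Lib.Helper1

open scoped IsMulCommutative

/-- an automorphism of a finite group `G` fixing a Sylow `p`-subgroup `T` elementwise, where
`Q ≤ T` is normal with `C_G(Q) ≤ Q`, is conjugation by an element of `C_G(Q)` -/
theorem aut_fix_sylow {G : Type*} [Group G] [Finite G] (p : ℕ) [Fact p.Prime] (T : Sylow p G)
    (Q : Subgroup G) (hQn : Q.Normal) (hQT : Q ≤ (T : Subgroup G))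
    (hCQ : Subgroup.centralizer (Q : Set G) ≤ Q) (ψ : G ≃* G)
    (hψ : ∀ t ∈ (T : Subgroup G), ψ t = t) :
    ∃ u ∈ Subgroup.centralizer (Q : Set G), ∀ g, ψ g = u * g * u⁻¹ := by
  classical
  haveI hCn : (Subgroup.centralizer (Q : Set G)).Normal := by
    constructor
    intro c hc g
    rw [Subgroup.mem_centralizer_iff] at hc ⊢
    intro x hx
    have h1 := hc (g⁻¹ * x * g) (by have := hQn.conj_mem x hx g⁻¹; simpa using this)
    calc x * (g * c * g⁻¹) = g * (g⁻¹ * x * g * c) * g⁻¹ := by group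
      _ = g * (c * (g⁻¹ * x * g)) * g⁻¹ := by rw [h1]
      _ = g * c * g⁻¹ * x := by group
  haveI hCc : IsMulCommutative ↥(Subgroup.centralizer (Q : Set G)) := by
    refine ⟨⟨fun a b => ?_⟩⟩
    apply Subtype.ext
    exact (Subgroup.mem_centralizer_iff.mp a.2 b (hCQ b.2)).symm
  have hδ : ∀ g : G, ψ g * g⁻¹ ∈ Subgroup.centralizer (Q : Set G) := by
    intro g
    have h0 : g⁻¹ * ψ g ∈ Subgroup.centralizer (Q : Set G) := by
      rw [Subgroup.mem_centralizer_iff]
      intro x hx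
      have hx' : g * x * g⁻¹ ∈ Q := hQn.conj_mem x hx g
      have h1 := hψ _ (hQT hx')
      rw [map_mul, map_mul, map_inv, hψ x (hQT hx)] at h1
      calc x * (g⁻¹ * ψ g) = g⁻¹ * (g * x * g⁻¹) * ψ g := by group
        _ = g⁻¹ * (ψ g * x * (ψ g)⁻¹) * ψ g := by rw [h1]
        _ = g⁻¹ * ψ g * x := by group
    have h2 := hCn.conj_mem _ h0 g
    have e : g * (g⁻¹ * ψ g) * g⁻¹ = ψ g * g⁻¹ := by group
    rw [e] at h2; exact h2
  have hδT : ∀ (g : G) (t : G), t ∈ (T : Subgroup G) →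
      (⟨ψ (g * t) * (g * t)⁻¹, hδ (g * t)⟩ : ↥(Subgroup.centralizer (Q : Set G))) =
        ⟨ψ g * g⁻¹, hδ g⟩ := by
    intro g t ht
    apply Subtype.ext
    show ψ (g * t) * (g * t)⁻¹ = ψ g * g⁻¹
    rw [map_mul, hψ t ht]; group
  have hδmul : ∀ h g : G,
      (⟨ψ (h * g) * (h * g)⁻¹, hδ (h * g)⟩ : ↥(Subgroup.centralizer (Q : Set G))) =
        ⟨ψ h * h⁻¹, hδ h⟩ * MulAut.conjNormal h
          (⟨ψ g * g⁻¹, hδ g⟩ : ↥(Subgroup.centralizer (Q : Set G))) := by
    intro h g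
    apply Subtype.ext
    show ψ (h * g) * (h * g)⁻¹ = ψ h * h⁻¹ * (h * (ψ g * g⁻¹) * h⁻¹)
    rw [map_mul]; group
  let f : G ⧸ (T : Subgroup G) → ↥(Subgroup.centralizer (Q : Set G)) := fun c =>
    Quotient.liftOn' c (fun g => (⟨ψ g * g⁻¹, hδ g⟩ : ↥(Subgroup.centralizer (Q : Set G))))
      (by
        intro a b hab
        have h1 : a⁻¹ * b ∈ (T : Subgroup G) := QuotientGroup.leftRel_apply.mp hab
        have h2 := hδT a (a⁻¹ * b) h1
        simp only [mul_inv_cancel_left] at h2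
        exact h2.symm)
  have hfsmul : ∀ (h : G) (c : G ⧸ (T : Subgroup G)),
      f (h • c) = ⟨ψ h * h⁻¹, hδ h⟩ * MulAut.conjNormal h (f c) := by
    intro h c
    induction c using Quotient.inductionOn' with
    | _ g => exact hδmul h g
  haveI : Fintype (G ⧸ (T : Subgroup G)) := Fintype.ofFinite _
  have hkey : ∀ h : G, ∏ c : G ⧸ (T : Subgroup G), f c =
      (⟨ψ h * h⁻¹, hδ h⟩ : ↥(Subgroup.centralizer (Q : Set G))) ^ (T : Subgroup G).index *
        MulAut.conjNormal h (∏ c : G ⧸ (T : Subgroup G), f c) := by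
    intro h
    have h1 : ∏ c : G ⧸ (T : Subgroup G), f (h • c) = ∏ c : G ⧸ (T : Subgroup G), f c :=
      Fintype.prod_equiv (MulAction.toPerm h) _ _ (fun c => rfl)
    conv_lhs => rw [← h1]
    simp_rw [hfsmul]
    rw [Finset.prod_mul_distrib, Finset.prod_const, Finset.card_univ, ← map_prod]
    congr 2
    rw [Subgroup.index_eq_card, Nat.card_eq_fintype_card]
  have hCp : IsPGroup p ↥(Subgroup.centralizer (Q : Set G)) := T.isPGroup'.to_le (hCQ.trans hQT)
  have hcop : (Nat.card ↥(Subgroup.centralizer (Q : Set G))).Coprime (T : Subgroup G).index := by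
    obtain ⟨k, hk⟩ := IsPGroup.iff_card.mp hCp
    rw [hk]
    apply Nat.Coprime.pow_left
    exact (Nat.Prime.coprime_iff_not_dvd Fact.out).mpr T.not_dvd_index
  obtain ⟨u, hu⟩ : ∃ u : ↥(Subgroup.centralizer (Q : Set G)),
      u ^ (T : Subgroup G).index = ∏ c : G ⧸ (T : Subgroup G), f c :=
    ⟨(powCoprime hcop).symm _, (powCoprime hcop).apply_symm_apply _⟩
  refine ⟨u, u.2, fun g => ?_⟩
  have h1 := hkey g
  have h2 : (⟨ψ g * g⁻¹, hδ g⟩ : ↥(Subgroup.centralizer (Q : Set G))) ^ (T : Subgroup G).index =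
      (u * (MulAut.conjNormal g u)⁻¹) ^ (T : Subgroup G).index := by
    rw [mul_pow, inv_pow, ← map_pow, hu, eq_mul_inv_iff_mul_eq]
    exact h1.symm
  have h3 : (⟨ψ g * g⁻¹, hδ g⟩ : ↥(Subgroup.centralizer (Q : Set G))) =
      u * (MulAut.conjNormal g u)⁻¹ := (powCoprime hcop).injective h2
  have h5 : ψ g * g⁻¹ = (u : G) * (g * (u : G) * g⁻¹)⁻¹ := congrArg Subtype.val h3
  calc ψ g = (ψ g * g⁻¹) * g := by group
    _ = (u : G) * (g * (u : G) * g⁻¹)⁻¹ * g := by rw [h5]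
    _ = u * g * (u : G)⁻¹ := by group

end Cfsg.Agent.Lib.Helper1
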