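import Mathlib
import Cfsg.Agent.Lib.Helper8.Q8Aut

/-! Automorphism groups of dihedral and generalized quaternion 2-groups of order at least 16
are 2-groups. -/

set_option autoImplicit false

namespace Cfsg.Agent.Lib.Helper1

open scoped commutatorElement

open DihedralGroup in
theorem dih_commutator_index (k : ℕ) (hk : 2 ≤ k) :
    (commutator (DihedralGroup (2 * k))).index = 4 := by
  haveI : NeZero (2 * k) := ⟨by omega⟩
  have hK : ∀ j : ZMod (2 * k), (r (2 * j) : DihedralGroup (2 * k)) ∈
      Subgroup.zpowers (r 2 : DihedralGroup (2 * k)) := by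
    intro j
    have h := Subgroup.pow_mem _ (Subgroup.mem_zpowers (r 2 : DihedralGroup (2 * k))) j.val
    rwa [r_pow, ZMod.natCast_zmod_val] at h
  have h1 : commutator (DihedralGroup (2 * k)) ≤ Subgroup.zpowers (r 2 : DihedralGroup (2 * k)) := by
    rw [commutator_def, Subgroup.commutator_le]
    intro a _ b _
    rw [commutatorElement_def]
    rcases a with i | i <;> rcases b with j | j
    · have : r i * r j * (r i)⁻¹ * (r j)⁻¹ = (r (2 * 0) : DihedralGroup (2 * k)) := by
        simp only [inv_r, r_mul_r]; congr 1; ring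
      rw [this]; exact hK 0
    · have : r i * sr j * (r i)⁻¹ * (sr j)⁻¹ = (r (2 * i) : DihedralGroup (2 * k)) := by
        simp only [inv_r, inv_sr, r_mul_sr, sr_mul_r, sr_mul_sr]; congr 1; ring
      rw [this]; exact hK i
    · have : sr i * r j * (sr i)⁻¹ * (r j)⁻¹ = (r (2 * (-j)) : DihedralGroup (2 * k)) := by
        simp only [inv_r, inv_sr, r_mul_r, sr_mul_r, sr_mul_sr]; congr 1; ring
      rw [this]; exact hK _
    · have : sr i * sr j * (sr i)⁻¹ * (sr j)⁻¹ = (r (2 * (j - i)) : DihedralGroup (2 * k)) := by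
        simp only [inv_sr, r_mul_sr, sr_mul_sr]; congr 1; ring
      rw [this]; exact hK _
  have h2 : Subgroup.zpowers (r 2 : DihedralGroup (2 * k)) ≤ commutator (DihedralGroup (2 * k)) := by
    rw [Subgroup.zpowers_le, commutator_def]
    have : (r 2 : DihedralGroup (2 * k)) = ⁅(r 1 : DihedralGroup (2 * k)), sr 0⁆ := by
      rw [commutatorElement_def]
      simp only [inv_r, inv_sr, r_mul_sr, sr_mul_r, sr_mul_sr]; congr 1; ring
    rw [this]
    exact Subgroup.commutator_mem_commutator (Subgroup.mem_top _) (Subgroup.mem_top _)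
  have heq := le_antisymm h1 h2
  rw [heq]
  have hval : (2 : ZMod (2 * k)).val = 2 := by
    rw [ZMod.val_two_eq_two_mod]; exact Nat.mod_eq_of_lt (by omega)
  have hcard : Nat.card (Subgroup.zpowers (r 2 : DihedralGroup (2 * k))) = k := by
    rw [Nat.card_zpowers, orderOf_r, hval, Nat.gcd_eq_right (Dvd.intro k rfl)]
    exact Nat.mul_div_cancel_left k (by norm_num)
  have h3 := Subgroup.card_mul_index (Subgroup.zpowers (r 2 : DihedralGroup (2 * k)))
  rw [hcard, DihedralGroup.nat_card] at h3
  have : k * (Subgroup.zpowers (r 2 : DihedralGroup (2 * k))).index = k * 4 := by rw [h3]; ring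
  exact Nat.eq_of_mul_eq_mul_left (by omega) this

open QuaternionGroup in
theorem quat_commutator_index (m : ℕ) (hm : 2 ≤ m) :
    (commutator (QuaternionGroup m)).index = 4 := by
  haveI : NeZero m := ⟨by omega⟩
  haveI : NeZero (2 * m) := ⟨by omega⟩
  have h2m : (m : ZMod (2 * m)) + m = 0 := by
    have := ZMod.natCast_self (2 * m)
    push_cast at this
    linear_combination this
  have inv_a : ∀ i : ZMod (2 * m), (a i : QuaternionGroup m)⁻¹ = a (-i) := fun i => rfl
  have inv_xa : ∀ i : ZMod (2 * m), (xa i : QuaternionGroup m)⁻¹ = xa ((m : ZMod (2 * m)) + i) := fun i => rfl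
  have hK : ∀ j : ZMod (2 * m), (a (2 * j) : QuaternionGroup m) ∈
      Subgroup.zpowers (a 2 : QuaternionGroup m) := by
    intro j
    have h := Subgroup.pow_mem _ (Subgroup.mem_zpowers (a 2 : QuaternionGroup m)) j.val
    have e : (a 2 : QuaternionGroup m) ^ j.val = a (2 * j) := by
      have h1 : (a 2 : QuaternionGroup m) = a 1 ^ 2 := by
        rw [a_one_pow]; norm_num
      rw [h1, ← pow_mul, a_one_pow]
      congr 1
      push_cast
      rw [ZMod.natCast_zmod_val]
    rwa [e] at h
  have h1 : commutator (QuaternionGroup m) ≤ Subgroup.zpowers (a 2 : QuaternionGroup m) := by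
    rw [commutator_def, Subgroup.commutator_le]
    intro x _ y _
    rw [commutatorElement_def]
    rcases x with i | i <;> rcases y with j | j
    · have : a i * a j * (a i)⁻¹ * (a j)⁻¹ = (a (2 * 0) : QuaternionGroup m) := by
        simp only [inv_a, a_mul_a]; congr 1; ring
      rw [this]; exact hK 0
    · have : a i * xa j * (a i)⁻¹ * (xa j)⁻¹ = (a (2 * i) : QuaternionGroup m) := by
        simp only [inv_a, inv_xa, a_mul_xa, xa_mul_a, xa_mul_xa]; congr 1
        linear_combination h2m
      rw [this]; exact hK i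
    · have : xa i * a j * (xa i)⁻¹ * (a j)⁻¹ = (a (2 * (-j)) : QuaternionGroup m) := by
        simp only [inv_a, inv_xa, a_mul_a, xa_mul_a, xa_mul_xa]; congr 1
        linear_combination h2m
      rw [this]; exact hK _
    · have : xa i * xa j * (xa i)⁻¹ * (xa j)⁻¹ = (a (2 * (j - i)) : QuaternionGroup m) := by
        simp only [inv_xa, a_mul_xa, xa_mul_xa]; congr 1
        linear_combination h2m
      rw [this]; exact hK _
  have h2 : Subgroup.zpowers (a 2 : QuaternionGroup m) ≤ commutator (QuaternionGroup m) := by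
    rw [Subgroup.zpowers_le, commutator_def]
    have : (a 2 : QuaternionGroup m) = ⁅(a 1 : QuaternionGroup m), xa 0⁆ := by
      rw [commutatorElement_def]
      simp only [inv_a, inv_xa, a_mul_xa, xa_mul_a, xa_mul_xa]; congr 1
      linear_combination -h2m
    rw [this]
    exact Subgroup.commutator_mem_commutator (Subgroup.mem_top _) (Subgroup.mem_top _)
  have heq := le_antisymm h1 h2
  rw [heq]
  have hval : (2 : ZMod (2 * m)).val = 2 := by
    rw [ZMod.val_two_eq_two_mod]; exact Nat.mod_eq_of_lt (by omega)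
  have hcard : Nat.card (Subgroup.zpowers (a 2 : QuaternionGroup m)) = m := by
    rw [Nat.card_zpowers, orderOf_a, hval, Nat.gcd_eq_right (Dvd.intro m rfl)]
    exact Nat.mul_div_cancel_left m (by norm_num)
  have h3 := Subgroup.card_mul_index (Subgroup.zpowers (a 2 : QuaternionGroup m))
  rw [hcard, Nat.card_eq_fintype_card, QuaternionGroup.card] at h3
  have : m * (Subgroup.zpowers (a 2 : QuaternionGroup m)).index = m * 4 := by rw [h3]; ring
  exact Nat.eq_of_mul_eq_mul_left (by omega) this

theorem not_comm_of_commutator_index {G : Type*} [Group G] (h4 : (commutator G).index = 4)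
    (hc : Nat.card G ≠ 4) : ¬ IsMulCommutative G := by
  intro hcomm
  have hbot : commutator G = ⊥ := by
    rw [eq_bot_iff, commutator_def, Subgroup.commutator_le]
    intro x _ y _
    rw [Subgroup.mem_bot, commutatorElement_eq_one_iff_commute]
    exact hcomm.is_comm.comm x y
  rw [hbot, Subgroup.index_bot] at h4
  exact hc h4

theorem dih_aut_isPGroup (n : ℕ) (hn : 4 ≤ n) :
    IsPGroup 2 (MulAut (DihedralGroup (2 ^ (n - 1)))) := by
  obtain ⟨j, rfl⟩ : ∃ j, n = j + 4 := ⟨n - 4, by omega⟩
  have e : 2 ^ (j + 4 - 1) = 2 * 2 ^ (j + 2) := by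
    have : j + 4 - 1 = (j + 2) + 1 := by omega
    rw [this, pow_succ]; ring
  rw [e]
  have hk : 2 ≤ 2 ^ (j + 2) := by
    have := Nat.pow_le_pow_right (n := 2) (by norm_num) (show 1 ≤ j + 2 by omega)
    simpa using this
  haveI : NeZero (2 * 2 ^ (j + 2)) := ⟨by positivity⟩
  have hcard : Nat.card (DihedralGroup (2 * 2 ^ (j + 2))) = 2 ^ (j + 4) := by
    rw [DihedralGroup.nat_card]; ring
  have hP : IsPGroup 2 (DihedralGroup (2 * 2 ^ (j + 2))) := IsPGroup.of_card hcard
  have h4 := dih_commutator_index (2 ^ (j + 2)) hk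
  have h16 : 16 ≤ 2 ^ (j + 4) := by
    have := Nat.pow_le_pow_right (n := 2) (by norm_num) (show 4 ≤ j + 4 by omega)
    simpa using this
  have hna := not_comm_of_commutator_index h4 (by rw [hcard]; omega)
  by_contra haut
  obtain ⟨f⟩ := Cfsg.Agent.Lib.Helper8.h8_s4189 hP hna h4 haut
  have h8 := Nat.card_congr f.toEquiv
  rw [hcard, Nat.card_eq_fintype_card, QuaternionGroup.card] at h8
  omega

theorem quat_aut_isPGroup (n : ℕ) (hn : 4 ≤ n) :
    IsPGroup 2 (MulAut (QuaternionGroup (2 ^ (n - 2)))) := by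
  obtain ⟨j, rfl⟩ : ∃ j, n = j + 4 := ⟨n - 4, by omega⟩
  have e : j + 4 - 2 = j + 2 := by omega
  rw [e]
  have hk : 2 ≤ 2 ^ (j + 2) := by
    have := Nat.pow_le_pow_right (n := 2) (by norm_num) (show 1 ≤ j + 2 by omega)
    simpa using this
  haveI : NeZero (2 ^ (j + 2)) := ⟨by positivity⟩
  have hcard : Nat.card (QuaternionGroup (2 ^ (j + 2))) = 2 ^ (j + 4) := by
    rw [Nat.card_eq_fintype_card, QuaternionGroup.card]; ring
  have hP : IsPGroup 2 (QuaternionGroup (2 ^ (j + 2))) := IsPGroup.of_card hcard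
  have h4 := quat_commutator_index (2 ^ (j + 2)) hk
  have h16 : 16 ≤ 2 ^ (j + 4) := by
    have := Nat.pow_le_pow_right (n := 2) (by norm_num) (show 4 ≤ j + 4 by omega)
    simpa using this
  have hna := not_comm_of_commutator_index h4 (by rw [hcard]; omega)
  by_contra haut
  obtain ⟨f⟩ := Cfsg.Agent.Lib.Helper8.h8_s4189 hP hna h4 haut
  have h8 := Nat.card_congr f.toEquiv
  rw [hcard, Nat.card_eq_fintype_card, QuaternionGroup.card] at h8
  omega

end Cfsg.Agent.Lib.Helper1
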