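import Mathlib
import Cfsg.Prelude
import Cfsg.Agent.Lib.Helper1.ExtLayer
import Cfsg.Agent.Lib.Helper1.StronglyEmb4
import Cfsg.Agent.Lib.Helper7.Coprime

set_option autoImplicit false

namespace Cfsg.Agent.Lib.Helper1

open Cfsg Cfsg.Agent.Lib.Helper7

theorem map_conj_eq_self_of_mem {X : Type*} [Group X] (B : Subgroup X) {t : X} (ht : t ∈ B) :
    B.map (MulAut.conj t).toMonoidHom = B := by
  apply le_antisymm
  · rintro _ ⟨b, hb, rfl⟩
    exact B.mul_mem (B.mul_mem ht hb) (B.inv_mem ht)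
  · intro b hb
    refine ⟨t⁻¹ * b * t, B.mul_mem (B.mul_mem (B.inv_mem ht) hb) ht, ?_⟩
    show t * (t⁻¹ * b * t) * t⁻¹ = b
    group

theorem pPrimeCore_le_pPrimePCore (p : ℕ) (X : Type*) [Group X] :
    Cfsg.pPrimeCore p X ≤ Cfsg.pPrimePCore p X := by
  intro x hx
  unfold Cfsg.pPrimePCore
  rw [Subgroup.mem_comap]
  have : (QuotientGroup.mk' (Cfsg.pPrimeCore p X)) x = 1 := by
    rw [QuotientGroup.mk'_apply, QuotientGroup.eq_one_iff]; exact hx
  rw [this]; exact Subgroup.one_mem _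

/-- `|O_{p',p}(X) : O_{p'}(X)|` is a power of `p`. -/
theorem relIndex_pPrimeCore_pPrimePCore (p : ℕ) [Fact p.Prime] (X : Type*) [Group X] [Finite X] :
    ∃ k : ℕ, (Cfsg.pPrimeCore p X).relIndex (Cfsg.pPrimePCore p X) = p ^ k := by
  have h1 := Subgroup.relIndex_ker (Cfsg.pPrimePCore p X) (QuotientGroup.mk' (Cfsg.pPrimeCore p X))
  rw [QuotientGroup.ker_mk'] at h1
  have h2 : (Cfsg.pPrimePCore p X).map (QuotientGroup.mk' (Cfsg.pPrimeCore p X)) =
      Cfsg.pCore p (X ⧸ Cfsg.pPrimeCore p X) := by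
    unfold Cfsg.pPrimePCore
    exact Subgroup.map_comap_eq_self_of_surjective (QuotientGroup.mk'_surjective _) _
  rw [h2] at h1
  rw [h1]
  exact IsPGroup.iff_card.mp (pCore_isPGroup p _)

theorem exists_mul_of_mem_sup_pPrimePCore_aux (p : ℕ) [Fact p.Prime] {X : Type*} [Group X] [Finite X]
    (L : Subgroup X) [hL : L.Normal] (N : Subgroup X) (hN : N = L ⊔ Cfsg.pPrimePCore p X)
    (T : Sylow p ↥N) (n : X) (hn : n ∈ N) :
    ∃ r ∈ L ⊔ Cfsg.pPrimeCore p X, ∃ t ∈ (T : Subgroup ↥N).map N.subtype, n = r * t := by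
  classical
  set M₀ := L ⊔ Cfsg.pPrimeCore p X with hM₀
  set TX := (T : Subgroup ↥N).map N.subtype with hTX
  haveI hM₀n : M₀.Normal := Subgroup.sup_normal _ _
  have hM₀N : M₀ ≤ N := by
    rw [hN]; exact sup_le_sup_left (pPrimeCore_le_pPrimePCore p X) L
  have hTXN : TX ≤ N := Subgroup.map_subtype_le _
  have hNeq : N = M₀ ⊔ Cfsg.pPrimePCore p X := by
    apply le_antisymm
    · rw [hN]; exact sup_le (le_sup_of_le_left le_sup_left) le_sup_right
    · exact sup_le hM₀N (by rw [hN]; exact le_sup_right)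
  have h1 : ∃ k : ℕ, M₀.relIndex N = p ^ k := by
    obtain ⟨k, hk⟩ := relIndex_pPrimeCore_pPrimePCore p X
    have h2 : M₀.relIndex N = M₀.relIndex (Cfsg.pPrimePCore p X) := by
      rw [hNeq, Subgroup.relIndex_sup_left]
    have h3 : M₀.relIndex (Cfsg.pPrimePCore p X) ∣
        (Cfsg.pPrimeCore p X).relIndex (Cfsg.pPrimePCore p X) :=
      Subgroup.relIndex_dvd_of_le_left _ le_sup_right
    rw [hk] at h3
    obtain ⟨i, -, hi⟩ := (Nat.dvd_prime_pow (Fact.out : p.Prime)).mp h3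
    exact ⟨i, h2.trans hi⟩
  obtain ⟨k, hk⟩ := h1
  have h4 : (M₀ ⊔ TX).relIndex N ∣ M₀.relIndex N :=
    Subgroup.relIndex_dvd_of_le_left _ le_sup_left
  have h5 : (M₀ ⊔ TX).relIndex N ∣ TX.relIndex N :=
    Subgroup.relIndex_dvd_of_le_left _ le_sup_right
  have h6 : ¬ p ∣ TX.relIndex N := sylow_map_subtype_relIndex T
  rw [hk] at h4
  obtain ⟨i, -, hi⟩ := (Nat.dvd_prime_pow (Fact.out : p.Prime)).mp h4
  have hi0 : i = 0 := by
    by_contra hne
    apply h6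
    refine dvd_trans ?_ h5
    rw [hi]
    exact dvd_pow_self p hne
  rw [hi0, pow_zero] at hi
  have h7 : N ≤ M₀ ⊔ TX := Subgroup.relIndex_eq_one.mp hi
  have hnorm : TX ≤ Subgroup.normalizer (M₀ : Set X) := by
    rw [Subgroup.normalizer_eq_top_iff.mpr hM₀n]; exact le_top
  exact exists_mul_of_mem_sup hnorm (h7 hn)

/-- A Sylow `p`-subgroup of `L ⊔ O_{p',p}(X)` covers it modulo `L ⊔ O_{p'}(X)`. -/
theorem exists_mul_of_mem_sup_pPrimePCore (p : ℕ) [Fact p.Prime] {X : Type*} [Group X] [Finite X]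
    (L : Subgroup X) [hL : L.Normal] (T : Sylow p ↥(L ⊔ Cfsg.pPrimePCore p X)) (n : X)
    (hn : n ∈ L ⊔ Cfsg.pPrimePCore p X) :
    ∃ r ∈ L ⊔ Cfsg.pPrimeCore p X, ∃ t ∈ (T : Subgroup ↥(L ⊔ Cfsg.pPrimePCore p X)).map
      (L ⊔ Cfsg.pPrimePCore p X).subtype, n = r * t :=
  exists_mul_of_mem_sup_pPrimePCore_aux p L _ rfl T n hn

end Cfsg.Agent.Lib.Helper1
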