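import Mathlib
import Cfsg.Prelude.Def_FusionComponents
import Cfsg.Agent.Lib.Helper1.FusBasic
import Cfsg.Agent.Lib.Helper1.FusSat2

/-! Invariant cores and Frattini products of subsystems. -/

set_option autoImplicit false

namespace Cfsg.Agent.Lib.Helper1

open Cfsg FusionSystem

variable {Ω : Type*} [Group Ω] {S : Subgroup Ω}

/-- `E` is invariant under conjugation by `Aut_F(T)` -/
def ConjInv (F : FusionSystem S) {T : Subgroup Ω} (E : FusionSystem T) : Prop :=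
  ∀ (P : Subgroup Ω) (hPT : P ≤ T) (φ : P →* Ω), φ ∈ E.Hom P → ∀ α ∈ F.autGroup T,
      ∃ χ ∈ E.Hom ((P.subgroupOf T).map (T.subtype.comp α.toMonoidHom)),
        ∀ (x : P) (hφx : φ x ∈ T)
          (hαx : ((α ⟨x, hPT x.2⟩ : T) : Ω) ∈ (P.subgroupOf T).map (T.subtype.comp α.toMonoidHom)),
          χ ⟨(α ⟨x, hPT x.2⟩ : T), hαx⟩ = ((α ⟨φ x, hφx⟩ : T) : Ω)

theorem img_le {T : Subgroup Ω} (α : MulAut T) (P : Subgroup Ω) :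
    (P.subgroupOf T).map (T.subtype.comp α.toMonoidHom) ≤ T := by
  rintro _ ⟨t, -, rfl⟩
  exact (α t).2

theorem mem_img {T : Subgroup Ω} (α : MulAut T) (P : Subgroup Ω) (x : Ω) (hx : x ∈ T)
    (hxP : x ∈ P) :
    ((α ⟨x, hx⟩ : T) : Ω) ∈ (P.subgroupOf T).map (T.subtype.comp α.toMonoidHom) :=
  ⟨⟨x, hx⟩, Subgroup.mem_subgroupOf.mpr hxP, rfl⟩

/-- the part of `E` all of whose `Aut_F(T)`-conjugates lie in `E` -/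
def invCore (F : FusionSystem S) {T : Subgroup Ω} (E : FusionSystem T) : FusionSystem T where
  Hom P := {φ | φ ∈ E.Hom P ∧ ∀ α ∈ F.autGroup T,
      ∃ χ ∈ E.Hom ((P.subgroupOf T).map (T.subtype.comp α.toMonoidHom)),
        ∀ (x : P) (hx : (x : Ω) ∈ T) (hφx : φ x ∈ T)
          (hαx : ((α ⟨x, hx⟩ : T) : Ω) ∈ (P.subgroupOf T).map (T.subtype.comp α.toMonoidHom)),
          χ ⟨(α ⟨x, hx⟩ : T), hαx⟩ = ((α ⟨φ x, hφx⟩ : T) : Ω)}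
  le_of_mem h := E.le_of_mem h.1
  injective_of_mem h := E.injective_of_mem h.1
  conj_mem := by
    intro P g hP hg
    refine ⟨E.conj_mem hP hg, fun α hα => ?_⟩
    refine ⟨conjHom _ ((α ⟨g, hg⟩ : T) : Ω), E.conj_mem (img_le α P) (α ⟨g, hg⟩).2, ?_⟩
    intro x hx hφx hαx
    show ((α ⟨g, hg⟩ : T) : Ω) * ((α ⟨x, hx⟩ : T) : Ω) * ((α ⟨g, hg⟩ : T) : Ω)⁻¹ = _
    have e : (⟨conjHom P g x, hφx⟩ : T) = ⟨g, hg⟩ * ⟨x, hx⟩ * ⟨g, hg⟩⁻¹ := Subtype.ext rfl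
    rw [e, map_mul, map_mul, map_inv]
    rfl
  comp_mem := by
    rintro P Q φ ψ ⟨hφ, hφi⟩ ⟨hψ, hψi⟩ h
    refine ⟨E.comp_mem hφ hψ h, fun α hα => ?_⟩
    obtain ⟨χ₁, hχ₁, hv₁⟩ := hφi α hα
    obtain ⟨χ₂, hχ₂, hv₂⟩ := hψi α hα
    have hPT := (E.le_of_mem hφ).1
    have hQT := (E.le_of_mem hψ).1
    have hφT := (E.le_of_mem hφ).2
    have hψT := (E.le_of_mem hψ).2
    have h' : ∀ z : ↥((P.subgroupOf T).map (T.subtype.comp α.toMonoidHom)),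
        χ₁ z ∈ (Q.subgroupOf T).map (T.subtype.comp α.toMonoidHom) := by
      rintro ⟨_, t, ht, rfl⟩
      have htP : (t : Ω) ∈ P := Subgroup.mem_subgroupOf.mp ht
      have h1 := hv₁ ⟨t, htP⟩ t.2 (hφT _) (mem_img α P t t.2 htP)
      have h2 : χ₁ ⟨(T.subtype.comp α.toMonoidHom) t, ⟨t, ht, rfl⟩⟩ =
          ((α ⟨φ ⟨t, htP⟩, hφT _⟩ : T) : Ω) := h1
      rw [h2]
      exact mem_img α Q _ _ (h ⟨t, htP⟩)
    refine ⟨χ₂.comp (χ₁.codRestrict _ h'), E.comp_mem hχ₁ hχ₂ h', ?_⟩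
    intro x hx hφx hαx
    have e1 := hv₁ x hx (hφT x) hαx
    have e2 : (χ₁.codRestrict _ h') ⟨(α ⟨x, hx⟩ : T), hαx⟩ =
        ⟨((α ⟨φ x, hφT x⟩ : T) : Ω), mem_img α Q _ _ (h x)⟩ := Subtype.ext e1
    show χ₂ ((χ₁.codRestrict _ h') ⟨(α ⟨x, hx⟩ : T), hαx⟩) = _
    rw [e2]
    exact hv₂ ⟨φ x, h x⟩ (hφT x) hφx (mem_img α Q _ _ (h x))
  inv_mem := by
    rintro P φ ⟨hφ, hφi⟩
    obtain ⟨ψ, hψ, hψv⟩ := E.inv_mem hφ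
    refine ⟨ψ, ⟨hψ, fun α hα => ?_⟩, hψv⟩
    obtain ⟨χ₁, hχ₁, hv₁⟩ := hφi α hα
    obtain ⟨χ', hχ', hχ'v⟩ := E.inv_mem hχ₁
    have hPT := (E.le_of_mem hφ).1
    have hφT := (E.le_of_mem hφ).2
    have hkey : ∀ x : P, ((α ⟨φ x, hφT x⟩ : T) : Ω) =
        χ₁ ⟨(α ⟨x, hPT x.2⟩ : T), mem_img α P x (hPT x.2) x.2⟩ := fun x =>
      (hv₁ x (hPT x.2) (hφT x) (mem_img α P x (hPT x.2) x.2)).symm
    have hle : (φ.range.subgroupOf T).map (T.subtype.comp α.toMonoidHom) ≤ χ₁.range := by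
      rintro _ ⟨t, ht, rfl⟩
      obtain ⟨x, hx⟩ := Subgroup.mem_subgroupOf.mp ht
      have e : t = ⟨φ x, hφT x⟩ := Subtype.ext hx.symm
      show ((α t : T) : Ω) ∈ χ₁.range
      rw [e, hkey x]
      exact ⟨_, rfl⟩
    refine ⟨χ'.comp (Subgroup.inclusion hle), fs_restrict E hle hχ', ?_⟩
    rintro ⟨_, x, rfl⟩ hy hψy hαy
    show χ' ⟨((α ⟨φ x, hy⟩ : T) : Ω), hle hαy⟩ = _
    have e1 : (⟨((α ⟨φ x, hy⟩ : T) : Ω), hle hαy⟩ : χ₁.range) =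
        ⟨χ₁ ⟨(α ⟨x, hPT x.2⟩ : T), mem_img α P x (hPT x.2) x.2⟩, ⟨_, rfl⟩⟩ :=
      Subtype.ext (hkey x)
    rw [e1, hχ'v]
    show ((α ⟨x, hPT x.2⟩ : T) : Ω) = _
    congr 2
    apply Subtype.ext
    exact (hψv x).symm

theorem invCore_le (F : FusionSystem S) {T : Subgroup Ω} (E : FusionSystem T) (P : Subgroup Ω) :
    (invCore F E).Hom P ⊆ E.Hom P := fun _ h => h.1

/-- `E` is conjugation invariant as soon as it is contained in its invariant core -/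
theorem conjInv_of_le_invCore (F : FusionSystem S) {T : Subgroup Ω} (E : FusionSystem T)
    (h : ∀ P : Subgroup Ω, E.Hom P ⊆ (invCore F E).Hom P) : ConjInv F E := by
  intro P hPT φ hφ α hα
  obtain ⟨χ, hχ, hχv⟩ := (h P hφ).2 α hα
  exact ⟨χ, hχ, fun x hφx hαx => hχv x (hPT x.2) hφx hαx⟩

/-- the invariant core is conjugation invariant -/
theorem invCore_conjInv (F : FusionSystem S) {T : Subgroup Ω} (E : FusionSystem T) :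
    ConjInv F (invCore F E) := by
  intro P hPT φ hφ α hα
  obtain ⟨hφE, hφi⟩ := hφ
  obtain ⟨χ, hχ, hχv⟩ := hφi α hα
  have hφT := (E.le_of_mem hφE).2
  refine ⟨χ, ⟨hχ, fun β hβ => ?_⟩, fun x hφx hαx => hχv x (hPT x.2) hφx hαx⟩
  obtain ⟨χ₃, hχ₃, hχ₃v⟩ := hφi (β * α) (Subgroup.mul_mem _ hβ hα)
  have hle : ((((P.subgroupOf T).map (T.subtype.comp α.toMonoidHom)).subgroupOf T).map
      (T.subtype.comp β.toMonoidHom)) ≤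
      (P.subgroupOf T).map (T.subtype.comp (β * α).toMonoidHom) := by
    rintro _ ⟨t, ht, rfl⟩
    obtain ⟨u, hu, hut⟩ := Subgroup.mem_subgroupOf.mp ht
    have e : t = α u := Subtype.ext hut.symm
    refine ⟨u, hu, ?_⟩
    show (((β * α) u : T) : Ω) = ((β t : T) : Ω)
    rw [e]; rfl
  refine ⟨χ₃.comp (Subgroup.inclusion hle), fs_restrict E hle hχ₃, ?_⟩
  rintro ⟨_, u, hu, rfl⟩ hz hχz hβz
  have huP : (u : Ω) ∈ P := Subgroup.mem_subgroupOf.mp hu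
  have h1 := hχ₃v ⟨u, huP⟩ u.2 (hφT _) (hle hβz)
  have h2 := hχv ⟨u, huP⟩ u.2 (hφT _) ⟨u, hu, rfl⟩
  show χ₃ ⟨((β ⟨(T.subtype.comp α.toMonoidHom) u, hz⟩ : T) : Ω), hle hβz⟩ = _
  have e3 : (⟨χ ⟨(T.subtype.comp α.toMonoidHom) u, ⟨u, hu, rfl⟩⟩, hχz⟩ : T) =
      α ⟨φ ⟨u, huP⟩, hφT _⟩ := Subtype.ext h2
  rw [e3]
  exact h1

/-- the maps `α ∘ φ₀` with `α ∈ Aut_F(T)` and `φ₀` in the invariant system `E` -/
def fratProd (F : FusionSystem S) {T : Subgroup Ω} (E : FusionSystem T) (hinv : ConjInv F E) :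
    FusionSystem T where
  Hom P := {φ | P ≤ T ∧ ∃ α ∈ F.autGroup T, ∃ φ₀ ∈ E.Hom P,
    ∀ (x : P) (hx : φ₀ x ∈ T), φ x = ((α ⟨φ₀ x, hx⟩ : T) : Ω)}
  le_of_mem := by
    rintro P φ ⟨hP, α, hα, φ₀, hφ₀, hv⟩
    refine ⟨hP, fun x => ?_⟩
    rw [hv x ((E.le_of_mem hφ₀).2 x)]
    exact (α _).2
  injective_of_mem := by
    rintro P φ ⟨hP, α, hα, φ₀, hφ₀, hv⟩ a b hab
    have hS₀ := (E.le_of_mem hφ₀).2
    rw [hv a (hS₀ a), hv b (hS₀ b)] at hab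
    have h1 := α.injective (Subtype.ext hab)
    exact E.injective_of_mem hφ₀ (congrArg Subtype.val h1)
  conj_mem := by
    intro P g hP hg
    exact ⟨hP, 1, Subgroup.one_mem _, conjHom P g, E.conj_mem hP hg, fun x hx => rfl⟩
  comp_mem := by
    rintro P Q φ ψ ⟨hP, α, hα, φ₀, hφ₀, hv⟩ ⟨hQ, β, hβ, ψ₀, hψ₀, hw⟩ h
    have hφ₀T := (E.le_of_mem hφ₀).2
    have hψ₀T := (E.le_of_mem hψ₀).2
    obtain ⟨χ₁, hχ₁, hχ₁v⟩ := hinv Q hQ ψ₀ hψ₀ α⁻¹ (Subgroup.inv_mem _ hα)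
    have hkey : ∀ x : P, (α⁻¹ ⟨φ x, hQ (h x)⟩ : T) = ⟨φ₀ x, hφ₀T x⟩ := by
      intro x
      have e : (⟨φ x, hQ (h x)⟩ : T) = α ⟨φ₀ x, hφ₀T x⟩ := Subtype.ext (hv x _)
      rw [e, MulAut.inv_apply_self]
    have h' : ∀ x : P, φ₀ x ∈ (Q.subgroupOf T).map (T.subtype.comp (α⁻¹).toMonoidHom) := by
      intro x
      refine ⟨⟨φ x, hQ (h x)⟩, Subgroup.mem_subgroupOf.mpr (h x), ?_⟩
      exact congrArg (Subtype.val : ↥T → Ω) (hkey x)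
    refine ⟨hP, β * α, Subgroup.mul_mem _ hβ hα, χ₁.comp (φ₀.codRestrict _ h'),
      E.comp_mem hφ₀ hχ₁ h', fun x hx => ?_⟩
    show ψ ⟨φ x, h x⟩ = ((β (α ⟨χ₁ ⟨φ₀ x, h' x⟩, hx⟩) : T) : Ω)
    rw [hw ⟨φ x, h x⟩ (hψ₀T _)]
    have h1 := hχ₁v ⟨φ x, h x⟩ (hψ₀T _) (mem_img α⁻¹ Q _ _ (h x))
    have hk' : ((α⁻¹ ⟨φ x, hQ (h x)⟩ : T) : Ω) = φ₀ x :=
      congrArg (Subtype.val : ↥T → Ω) (hkey x)
    have e1 : (⟨((α⁻¹ ⟨φ x, hQ (h x)⟩ : T) : Ω), mem_img α⁻¹ Q _ _ (h x)⟩ :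
        ↥((Q.subgroupOf T).map (T.subtype.comp (α⁻¹).toMonoidHom))) = ⟨φ₀ x, h' x⟩ :=
      Subtype.ext hk'
    rw [e1] at h1
    have e2 : (⟨χ₁ ⟨φ₀ x, h' x⟩, hx⟩ : T) = α⁻¹ ⟨ψ₀ ⟨φ x, h x⟩, hψ₀T _⟩ := Subtype.ext h1
    rw [e2, MulAut.apply_inv_self]
  inv_mem := by
    rintro P φ ⟨hP, α, hα, φ₀, hφ₀, hv⟩
    have hφ₀T := (E.le_of_mem hφ₀).2
    obtain ⟨ψ₀, hψ₀, hψ₀v⟩ := E.inv_mem hφ₀
    have hR₀T : φ₀.range ≤ T := fs_range_le E hφ₀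
    obtain ⟨χ, hχ, hχv⟩ := hinv φ₀.range hR₀T ψ₀ hψ₀ α hα
    have hle : φ.range ≤ (φ₀.range.subgroupOf T).map (T.subtype.comp α.toMonoidHom) := by
      rintro _ ⟨x, rfl⟩
      exact ⟨⟨φ₀ x, hφ₀T x⟩, Subgroup.mem_subgroupOf.mpr ⟨x, rfl⟩, (hv x _).symm⟩
    have hψ₁ := fs_restrict E hle hχ
    have hψ₁T := (E.le_of_mem hψ₁).2
    have hrT : φ.range ≤ T := by
      rintro _ ⟨x, rfl⟩
      rw [hv x (hφ₀T x)]; exact (α _).2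
    refine ⟨(T.subtype.comp (α⁻¹).toMonoidHom).comp
      ((χ.comp (Subgroup.inclusion hle)).codRestrict T hψ₁T),
      ⟨hrT, α⁻¹, Subgroup.inv_mem _ hα, χ.comp (Subgroup.inclusion hle), hψ₁,
        fun y hy => rfl⟩, ?_⟩
    intro x
    show ((α⁻¹ ⟨χ ⟨φ x, hle ⟨x, rfl⟩⟩, hψ₁T ⟨φ x, ⟨x, rfl⟩⟩⟩ : T) : Ω) = x
    have h1 := hχv ⟨φ₀ x, ⟨x, rfl⟩⟩ ((E.le_of_mem hψ₀).2 _)
      (mem_img α φ₀.range _ (hφ₀T x) ⟨x, rfl⟩)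
    have e1 : (⟨((α ⟨φ₀ x, hφ₀T x⟩ : T) : Ω), mem_img α φ₀.range _ (hφ₀T x) ⟨x, rfl⟩⟩ :
        ↥((φ₀.range.subgroupOf T).map (T.subtype.comp α.toMonoidHom))) =
        ⟨φ x, hle ⟨x, rfl⟩⟩ := Subtype.ext (hv x _).symm
    rw [e1] at h1
    have e2 : (⟨χ ⟨φ x, hle ⟨x, rfl⟩⟩, hψ₁T ⟨φ x, ⟨x, rfl⟩⟩⟩ : T) =
        α ⟨ψ₀ ⟨φ₀ x, ⟨x, rfl⟩⟩, (E.le_of_mem hψ₀).2 _⟩ := Subtype.ext h1
    rw [e2, MulAut.inv_apply_self]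
    exact hψ₀v x

theorem le_fratProd (F : FusionSystem S) {T : Subgroup Ω} (E : FusionSystem T)
    (hinv : ConjInv F E) (P : Subgroup Ω) : E.Hom P ⊆ (fratProd F E hinv).Hom P := by
  intro φ hφ
  exact ⟨(E.le_of_mem hφ).1, 1, Subgroup.one_mem _, φ, hφ, fun x hx => rfl⟩

theorem aut_mem_fratProd (F : FusionSystem S) {T : Subgroup Ω} (E : FusionSystem T)
    (hinv : ConjInv F E) (α : MulAut T) (hα : α ∈ F.autGroup T) (P : Subgroup Ω) (hPT : P ≤ T)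
    (φ : P →* Ω) (hφ : ∀ x : P, φ x = ((α ⟨x, hPT x.2⟩ : T) : Ω)) :
    φ ∈ (fratProd F E hinv).Hom P :=
  ⟨hPT, α, hα, P.subtype, fs_subtype_mem E hPT, fun x hx => hφ x⟩

end Cfsg.Agent.Lib.Helper1
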