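import Mathlib

set_option autoImplicit false

namespace Cfsg.Agent.Lib.Helper1

open Matrix Matrix.SpecialLinearGroup
open scoped commutatorElement

variable {F : Type*} [Field F] {ι : Type*} [DecidableEq ι] [Fintype ι]

theorem transvection_commutator {i j k : ι} (hij : i ≠ j) (hik : i ≠ k) (hkj : k ≠ j) (a : F) :
    ⁅SpecialLinearGroup.transvection hik a, SpecialLinearGroup.transvection hkj (1 : F)⁆ =
      SpecialLinearGroup.transvection hij a := by
  rw [commutatorElement_def, SpecialLinearGroup.transvection_inv, SpecialLinearGroup.transvection_inv]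
  apply SpecialLinearGroup.coeMonoidHom_injective
  simp only [map_mul, SpecialLinearGroup.coeMonoidHom_apply, SpecialLinearGroup.transvection_coe]
  have h1 : (single i k a : Matrix ι ι F) * single i k (-a) = 0 :=
    single_mul_single_of_ne _ _ _ _ hik.symm _
  have h2 : (single i k a : Matrix ι ι F) * single k j (-1) = single i j (-a) := by
    rw [single_mul_single_same]; simp
  have h3 : (single k j (1 : F) : Matrix ι ι F) * single i k (-a) = 0 :=
    single_mul_single_of_ne _ _ _ _ hij.symm _
  have h4 : (single k j (1 : F) : Matrix ι ι F) * single k j (-1) = 0 :=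
    single_mul_single_of_ne _ _ _ _ hkj.symm _
  have h5 : (single i k a : Matrix ι ι F) * single k j 1 = single i j a := by
    rw [single_mul_single_same]; simp
  have h6 : (single i j a : Matrix ι ι F) * single i k (-a) = 0 :=
    single_mul_single_of_ne _ _ _ _ hij.symm _
  have h7 : (single i j a : Matrix ι ι F) * single k j (-1) = 0 :=
    single_mul_single_of_ne _ _ _ _ hkj.symm _
  have e1 : ((1 : Matrix ι ι F) + single i k a) * (1 + single k j 1) =
      1 + single i k a + single k j 1 + single i j a := by
    simp only [mul_add, add_mul, mul_one, one_mul, h5]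
    abel
  rw [e1]
  have n1 : (single i k (-a) : Matrix ι ι F) = - single i k a := (single_neg i k a).symm
  have n2 : (single k j (-1 : F) : Matrix ι ι F) = - single k j 1 := (single_neg k j (1 : F)).symm
  have e2 : ((1 : Matrix ι ι F) + single i k a + single k j 1 + single i j a) * (1 + single i k (-a)) =
      1 + single k j 1 + single i j a := by
    simp only [mul_add, add_mul, mul_one, one_mul, h1, h3, h6, add_zero]
    rw [n1]
    abel
  rw [e2]
  simp only [mul_add, add_mul, mul_one, one_mul, h4, h7, add_zero]
  rw [n2]
  abel

theorem diag2n_eq_prod {i j : ι} (hij : i ≠ j) (c : F) (hc : c ≠ 0) :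
    SpecialLinearGroup.diag2n hij c hc =
      SpecialLinearGroup.transvection hij.symm (-(c - 1) / c) * SpecialLinearGroup.transvection hij 1 *
        SpecialLinearGroup.transvection hij.symm (c - 1) * SpecialLinearGroup.transvection hij (-1 / c) := by
  apply SpecialLinearGroup.coeMonoidHom_injective
  simp only [map_mul, SpecialLinearGroup.coeMonoidHom_apply, SpecialLinearGroup.transvection_coe,
    SpecialLinearGroup.diag2n_coe]
  set b : F := c - 1 with hb
  set a' : F := -1 / c with ha'
  set b' : F := -(c - 1) / c with hb'
  have p1 : (single i j (1 : F) : Matrix ι ι F) * single j i b = single i i b := by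
    rw [single_mul_single_same, one_mul]
  have p2 : (single i j (1 : F) : Matrix ι ι F) * single i j a' = 0 :=
    single_mul_single_of_ne _ _ _ _ hij.symm _
  have p3 : (single j i b : Matrix ι ι F) * single i j a' = single j j (b * a') := by
    rw [single_mul_single_same]
  have p4 : (single i i b : Matrix ι ι F) * single i j a' = single i j (b * a') := by
    rw [single_mul_single_same]
  have p5 : (single j i b' : Matrix ι ι F) * single j i b = 0 :=
    single_mul_single_of_ne _ _ _ _ hij _
  have p6 : (single j i b' : Matrix ι ι F) * single i i b = single j i (b' * b) := by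
    rw [single_mul_single_same]
  have p7 : (single j i b' : Matrix ι ι F) * single j j (b * a') = 0 :=
    single_mul_single_of_ne _ _ _ _ hij _
  have e1 : ((1 : Matrix ι ι F) + single i j 1) * (1 + single j i b) =
      1 + single i j 1 + single j i b + single i i b := by
    simp only [mul_add, add_mul, mul_one, one_mul, p1]
    abel
  have z1 : (1 : F) + a' + b * a' = 0 := by
    simp only [hb, ha']
    field_simp
    ring
  have e2 : ((1 : Matrix ι ι F) + single i j 1 + single j i b + single i i b) * (1 + single i j a') =
      1 + single j i b + single i i b + single j j (b * a') := by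
    simp only [mul_add, add_mul, mul_one, one_mul, p2, p3, p4, add_zero]
    have : (single i j (1 : F) : Matrix ι ι F) + single i j a' + single i j (b * a') = 0 := by
      rw [← single_add, ← single_add, z1, single_zero]
    refine sub_eq_zero.mp ?_
    refine Eq.trans ?_ this
    abel
  have z2 : b + b' + b' * b = 0 := by
    simp only [hb, hb']
    field_simp
    ring
  have e3 : ((1 : Matrix ι ι F) + single j i b') * (1 + single j i b + single i i b + single j j (b * a')) =
      1 + single i i b + single j j (b * a') := by
    simp only [mul_add, add_mul, mul_one, one_mul, p5, p6, p7, add_zero]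
    have : (single j i b : Matrix ι ι F) + single j i b' + single j i (b' * b) = 0 := by
      rw [← single_add, ← single_add, z2, single_zero]
    refine sub_eq_zero.mp ?_
    refine Eq.trans ?_ this
    abel
  have assoc : ((1 : Matrix ι ι F) + single j i b') * (1 + single i j 1) * (1 + single j i b) *
      (1 + single i j a') =
      (1 + single j i b') * (((1 + single i j 1) * (1 + single j i b)) * (1 + single i j a')) := by
    simp only [mul_assoc]
  rw [assoc, e1, e2, e3]
  have z3 : b * a' = c⁻¹ - 1 := by
    simp only [hb, ha']
    field_simp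
    ring
  rw [z3]
  ext x y
  simp only [diagonal_apply, Matrix.add_apply, one_apply, single_apply]
  by_cases hxy : x = y
  · subst hxy
    by_cases hxi : x = i
    · subst hxi
      simp [Ne.symm hij, hb]
    · by_cases hxj : x = j
      · subst hxj
        simp [hxi, Ne.symm hxi]
      · simp [hxi, hxj, Ne.symm hxi, Ne.symm hxj]
  · simp only [hxy, if_false]
    have h1 : ¬ (i = x ∧ i = y) := fun h => hxy (h.1.symm.trans h.2)
    have h2 : ¬ (j = x ∧ j = y) := fun h => hxy (h.1.symm.trans h.2)
    simp [h1, h2]

/-- The set of transvections in `SL`. -/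
def transvections (ι F : Type*) [Field F] [DecidableEq ι] [Fintype ι] : Set (SpecialLinearGroup ι F) :=
  {g | ∃ (i j : ι) (hij : i ≠ j) (a : F), g = SpecialLinearGroup.transvection hij a}

theorem closure_transvections [Nontrivial ι] : Subgroup.closure (transvections ι F) = ⊤ := by
  rw [eq_top_iff]
  intro M _
  refine SpecialLinearGroup.diagonal_transvection_induction'
    (fun M => M ∈ Subgroup.closure (transvections ι F)) M ?_ ?_ ?_
  · intro i j hij c hc
    rw [diag2n_eq_prod hij c hc]
    refine mul_mem (mul_mem (mul_mem ?_ ?_) ?_) ?_ <;>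
      exact Subgroup.subset_closure ⟨_, _, _, _, rfl⟩
  · intro i j hij a
    exact Subgroup.subset_closure ⟨i, j, hij, a, rfl⟩
  · intro A B hA hB
    exact mul_mem hA hB

theorem exists_third (h3 : 3 ≤ Fintype.card ι) (i j : ι) : ∃ k, k ≠ i ∧ k ≠ j := by
  by_contra hcon
  push Not at hcon
  have hsub : (Finset.univ : Finset ι) ⊆ {i, j} := fun k _ => by
    by_cases hk : k = i
    · simp [hk]
    · simp [hcon k hk]
  have h1 := Finset.card_le_card hsub
  have h2 : ({i, j} : Finset ι).card ≤ 2 := Finset.card_le_two
  rw [Finset.card_univ] at h1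
  omega

theorem commutator_SL_eq_top (h3 : 3 ≤ Fintype.card ι) :
    commutator (SpecialLinearGroup ι F) = ⊤ := by
  have : Nontrivial ι := Fintype.one_lt_card_iff_nontrivial.mp (by omega)
  rw [eq_top_iff, ← closure_transvections, Subgroup.closure_le]
  rintro g ⟨i, j, hij, a, rfl⟩
  obtain ⟨k, hki, hkj⟩ := exists_third h3 i j
  rw [← transvection_commutator hij (Ne.symm hki) hkj a]
  exact Subgroup.commutator_mem_commutator (Subgroup.mem_top _) (Subgroup.mem_top _)

open scoped LinearAlgebra.Projectivization

theorem iSup_lineStab_eq_top [Nontrivial ι] :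
    (⨆ p : ℙ F (ι → F), SpecialLinearGroup.lineStab p.submodule) =
      (⊤ : Subgroup (SpecialLinearGroup ι F)) := by
  rw [eq_top_iff, ← closure_transvections, Subgroup.closure_le]
  rintro g ⟨i, j, hij, a, rfl⟩
  have hne : (Pi.single i (1 : F) : ι → F) ≠ 0 := Pi.single_ne_zero_iff.2 one_ne_zero
  have h1 := SL2Gen.transvection_mem_lineStab (F := F) hij a
  rw [← Projectivization.submodule_mk (K := F) _ hne] at h1
  exact Subgroup.mem_iSup_of_mem (Projectivization.mk F _ hne) h1

theorem iSup_iwasawaT_eq_top [Nontrivial ι] :
    iSup (PSL.iwasawaT (F := F) (ι := ι)) = ⊤ := by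
  have step1 : iSup (PSL.iwasawaT (F := F) (ι := ι)) =
      Subgroup.map (QuotientGroup.mk' (Subgroup.center (Matrix.SpecialLinearGroup ι F)))
        (⨆ p : ℙ F (ι → F), Matrix.SpecialLinearGroup.lineStab (F := F) (ι := ι) p.submodule) := by
    rw [Subgroup.map_iSup]
  rw [step1, iSup_lineStab_eq_top]
  exact Subgroup.map_top_of_surjective _ (QuotientGroup.mk'_surjective _)

/-- The Iwasawa structure on `PSL(ι, F)` acting on projective space. -/
noncomputable def pslIwasawa [Nontrivial ι] :
    MulAction.IwasawaStructure (Matrix.ProjectiveSpecialLinearGroup ι F) (ℙ F (ι → F)) where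
  T := PSL.iwasawaT
  is_comm p := by
    have hSL : IsMulCommutative (SpecialLinearGroup.lineStab (F := F) (ι := ι) p.submodule) := by
      rw [← Projectivization.mk_rep p, Projectivization.submodule_mk]
      exact SpecialLinearGroup.lineStab_isMulCommutative_of_span p.rep p.rep_nonzero
    exact Subgroup.map_isMulCommutative _ _
  is_conj g p := by
    obtain ⟨g_SL, rfl⟩ := QuotientGroup.mk_surjective g
    rw [Matrix.ProjectiveSpecialLinearGroup.smul_proj_mk]
    change Subgroup.map _ _ = _
    rw [PSL.smul_submodule, Matrix.SpecialLinearGroup.lineStab_smul, PSL.iwasawaT_map_conj]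
  is_generator := iSup_iwasawaT_eq_top

theorem psl_isSimpleGroup (h3 : 3 ≤ Fintype.card ι) :
    IsSimpleGroup (Matrix.ProjectiveSpecialLinearGroup ι F) := by
  have : Nontrivial ι := Fintype.one_lt_card_iff_nontrivial.mp (by omega)
  have hperf : commutator (Matrix.ProjectiveSpecialLinearGroup ι F) = ⊤ := by
    have : Group.IsPerfect (SpecialLinearGroup ι F) := ⟨commutator_SL_eq_top h3⟩
    have : Group.IsPerfect (Matrix.ProjectiveSpecialLinearGroup ι F) := inferInstance
    exact this.commutator_eq_top
  exact MulAction.IwasawaStructure.isSimpleGroup hperf pslIwasawa inferInstance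

end Cfsg.Agent.Lib.Helper1
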