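import Mathlib
import Cfsg.Agent.Lib.Helper1.SLGen

set_option autoImplicit false

namespace Cfsg.Agent.Lib.Helper1

open Matrix Matrix.SpecialLinearGroup
open scoped commutatorElement

variable {F : Type*} [Field F] {ι : Type*} [DecidableEq ι] [Fintype ι]

theorem diag_single_diag (f g : ι → F) (i j : ι) (x : F) :
    diagonal f * single i j x * diagonal g = single i j (f i * x * g j) := by
  ext u v
  rw [Matrix.mul_diagonal, Matrix.diagonal_mul, single_apply, single_apply]
  split_ifs with h
  · obtain ⟨rfl, rfl⟩ := h
    rfl
  · simp

/-- The diagonal matrix with entry `a` at `i` and `1` elsewhere, as an element of `GL`. -/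
def diagOne (i : ι) (a : F) (ha : a ≠ 0) : GL ι F where
  val := diagonal (fun k => if k = i then a else 1)
  inv := diagonal (fun k => if k = i then a⁻¹ else 1)
  val_inv := by
    rw [diagonal_mul_diagonal, ← diagonal_one]
    congr 1
    funext k
    by_cases hk : k = i <;> simp [hk, ha]
  inv_val := by
    rw [diagonal_mul_diagonal, ← diagonal_one]
    congr 1
    funext k
    by_cases hk : k = i <;> simp [hk, ha]

theorem diagOne_commutator {i j : ι} (hij : i ≠ j) (a : F) (ha : a ≠ 0) (x : F) :
    ⁅diagOne i a ha, SpecialLinearGroup.toGL (SpecialLinearGroup.transvection hij x)⁆ =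
      SpecialLinearGroup.toGL (SpecialLinearGroup.transvection hij ((a - 1) * x)) := by
  rw [commutatorElement_def, ← map_inv, SpecialLinearGroup.transvection_inv]
  apply Units.ext
  simp only [Units.val_mul, SpecialLinearGroup.coe_GL_coe_matrix, SpecialLinearGroup.transvection_coe]
  have hd : ((diagOne i a ha : GL ι F) : Matrix ι ι F) = diagonal (fun k => if k = i then a else 1) := rfl
  have hdi : (((diagOne i a ha)⁻¹ : GL ι F) : Matrix ι ι F) = diagonal (fun k => if k = i then a⁻¹ else 1) := rfl
  rw [hd, hdi]
  have h1 : diagonal (fun k => if k = i then a else 1) * ((1 : Matrix ι ι F) + single i j x) *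
      diagonal (fun k => if k = i then a⁻¹ else 1) = 1 + single i j (a * x) := by
    rw [mul_add, add_mul, mul_one, diag_single_diag, diagonal_mul_diagonal]
    congr 1
    · rw [← diagonal_one]
      congr 1
      funext k
      by_cases hk : k = i <;> simp [hk, ha]
    · simp [Ne.symm hij]
  rw [h1]
  have h2 : (single i j (a * x) : Matrix ι ι F) * single i j (-x) = 0 :=
    single_mul_single_of_ne _ _ _ _ hij.symm _
  simp only [mul_add, add_mul, mul_one, one_mul, h2, add_zero]
  rw [add_assoc, ← single_add]
  congr 2
  ring

theorem toGL_transvection_mem_commutator {i j : ι} (hij : i ≠ j) (a : F) (ha0 : a ≠ 0) (ha1 : a ≠ 1)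
    (b : F) :
    SpecialLinearGroup.toGL (SpecialLinearGroup.transvection hij b) ∈ commutator (GL ι F) := by
  have h : (a - 1) * (b / (a - 1)) = b := by
    have : a - 1 ≠ 0 := sub_ne_zero.mpr ha1
    field_simp
  rw [← h, ← diagOne_commutator hij a ha0]
  exact Subgroup.commutator_mem_commutator (Subgroup.mem_top _) (Subgroup.mem_top _)

theorem commutator_GL_eq_ker_det (h : Fintype.card ι = 2 → ∃ a : F, a ≠ 0 ∧ a ≠ 1) :
    commutator (GL ι F) = (Matrix.GeneralLinearGroup.det : GL ι F →* Fˣ).ker := by
  apply le_antisymm
  · exact Abelianization.commutator_subset_ker _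
  · intro g hg
    have hg' : (g : Matrix ι ι F).det = 1 := by
      have := congrArg (fun u : Fˣ => (u : F)) (MonoidHom.mem_ker.mp hg)
      simpa using this
    let s : SpecialLinearGroup ι F := ⟨(g : Matrix ι ι F), hg'⟩
    have hs : SpecialLinearGroup.toGL s = g := by
      ext i j
      rfl
    rw [← hs]
    rcases Nat.lt_or_ge (Fintype.card ι) 2 with h2 | h2
    · have hsub : Subsingleton ι := Fintype.card_le_one_iff_subsingleton.mp (by omega)
      have hs1 : s = 1 := by
        apply Subtype.ext
        have hdet := s.2
        rcases isEmpty_or_nonempty ι with he | hne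
        · ext i j
          exact (he.false i).elim
        · obtain ⟨i0⟩ := hne
          haveI : Unique ι := ⟨⟨i0⟩, fun x => Subsingleton.elim _ _⟩
          rw [Matrix.det_unique] at hdet
          ext i j
          rw [Subsingleton.elim i default, Subsingleton.elim j default, hdet]
          simp
      rw [hs1, map_one]
      exact one_mem _
    · have hnt : Nontrivial ι := Fintype.one_lt_card_iff_nontrivial.mp (by omega)
      rcases Nat.lt_or_ge (Fintype.card ι) 3 with h3 | h3
      · obtain ⟨a, ha0, ha1⟩ := h (by omega)
        have hcl : s ∈ Subgroup.closure (transvections ι F) := by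
          rw [closure_transvections]
          trivial
        have hle : Subgroup.closure (transvections ι F) ≤
            (commutator (GL ι F)).comap SpecialLinearGroup.toGL := by
          rw [Subgroup.closure_le]
          rintro t ⟨i, j, hij, b, rfl⟩
          exact toGL_transvection_mem_commutator hij a ha0 ha1 b
        exact hle hcl
      · have hmem : s ∈ commutator (SpecialLinearGroup ι F) := by
          rw [commutator_SL_eq_top h3]
          trivial
        have hmap : (commutator (SpecialLinearGroup ι F)).map SpecialLinearGroup.toGL ≤
            commutator (GL ι F) := by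
          rw [commutator_def, Subgroup.map_commutator]
          exact Subgroup.commutator_mono le_top le_top
        exact hmap ⟨s, hmem, rfl⟩

end Cfsg.Agent.Lib.Helper1
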