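import Mathlib
import Cfsg.Agent.Lib.Helper8.MaxClass2

set_option autoImplicit false
set_option maxHeartbeats 1000000

namespace Cfsg.Agent.Lib.Helper1

open scoped commutatorElement

/-- if `G = ⟨x⟩ G'` then `G' ≤ γ₃`. -/
theorem lcs_one_le_two_of_cyclic_quot {G : Type*} [Group G] (x : G)
    (h : ∀ g : G, ∃ i : ℤ, (x ^ i)⁻¹ * g ∈ (⊤ : Subgroup G).lowerCentralSeries 1) :
    (⊤ : Subgroup G).lowerCentralSeries 1 ≤ (⊤ : Subgroup G).lowerCentralSeries 2 := by
  have hE2 : (⊤ : Subgroup G).lowerCentralSeries 2 =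
      ⁅(⊤ : Subgroup G).lowerCentralSeries 1, (⊤ : Subgroup G)⁆ := rfl
  have hD1 : (⊤ : Subgroup G).lowerCentralSeries 1 =
      ⁅(⊤ : Subgroup G), (⊤ : Subgroup G)⁆ := rfl
  have hcent : ∀ d ∈ (⊤ : Subgroup G).lowerCentralSeries 1, ∀ y : G,
      (QuotientGroup.mk d : G ⧸ (⊤ : Subgroup G).lowerCentralSeries 2) * QuotientGroup.mk y =
        QuotientGroup.mk y * QuotientGroup.mk d := by
    intro d hd y
    rw [← QuotientGroup.mk_mul, ← QuotientGroup.mk_mul, QuotientGroup.eq]
    have h1 : ⁅d⁻¹, y⁻¹⁆ ∈ (⊤ : Subgroup G).lowerCentralSeries 2 := by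
      rw [hE2]
      exact Subgroup.commutator_mem_commutator (Subgroup.inv_mem _ hd) (Subgroup.mem_top _)
    have h2 : (d * y)⁻¹ * (y * d) = ⁅d⁻¹, y⁻¹⁆⁻¹ := by
      rw [commutatorElement_def]; group
    rw [h2]
    exact Subgroup.inv_mem _ h1
  have hcent' : ∀ d ∈ (⊤ : Subgroup G).lowerCentralSeries 1,
      ∀ q : G ⧸ (⊤ : Subgroup G).lowerCentralSeries 2,
        (QuotientGroup.mk d : G ⧸ (⊤ : Subgroup G).lowerCentralSeries 2) * q =
          q * QuotientGroup.mk d := by
    intro d hd q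
    induction q using QuotientGroup.induction_on with
    | H y => exact hcent d hd y
  nth_rewrite 1 [hD1]
  rw [Subgroup.commutator_le]
  intro g _ k _
  obtain ⟨i, hi⟩ := h g
  obtain ⟨j, hj⟩ := h k
  obtain ⟨d, hd, rfl⟩ : ∃ d ∈ (⊤ : Subgroup G).lowerCentralSeries 1, g = x ^ i * d :=
    ⟨(x ^ i)⁻¹ * g, hi, by group⟩
  obtain ⟨d', hd', rfl⟩ : ∃ d' ∈ (⊤ : Subgroup G).lowerCentralSeries 1, k = x ^ j * d' :=
    ⟨(x ^ j)⁻¹ * k, hj, by group⟩
  rw [← QuotientGroup.eq_one_iff, commutatorElement_def]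
  simp only [QuotientGroup.mk_mul, QuotientGroup.mk_inv, QuotientGroup.mk_zpow]
  have hAB := zpow_mul_comm (QuotientGroup.mk x : G ⧸ (⊤ : Subgroup G).lowerCentralSeries 2) i j
  have hδ := hcent' d hd
  have hδ' := hcent' d' hd'
  generalize (QuotientGroup.mk x : G ⧸ (⊤ : Subgroup G).lowerCentralSeries 2) ^ i = A at hAB ⊢
  generalize (QuotientGroup.mk x : G ⧸ (⊤ : Subgroup G).lowerCentralSeries 2) ^ j = B at hAB ⊢
  generalize (QuotientGroup.mk d : G ⧸ (⊤ : Subgroup G).lowerCentralSeries 2) = δ at hδ ⊢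
  generalize (QuotientGroup.mk d' : G ⧸ (⊤ : Subgroup G).lowerCentralSeries 2) = δ' at hδ' ⊢
  have e1 : A * δ * (B * δ') = B * δ' * (A * δ) := by
    calc A * δ * (B * δ') = A * (δ * B) * δ' := by simp only [mul_assoc]
      _ = A * (B * δ) * δ' := by rw [hδ B]
      _ = (A * B) * (δ * δ') := by simp only [mul_assoc]
      _ = (B * A) * (δ' * δ) := by rw [hAB, hδ δ']
      _ = B * (A * δ') * δ := by simp only [mul_assoc]
      _ = B * (δ' * A) * δ := by rw [hδ' A]
      _ = B * δ' * (A * δ) := by simp only [mul_assoc]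
  rw [e1]; group

theorem lcs_one_le_two_of_zpowers_top {G : Type*} [Group G] (x : G)
    (hz : Subgroup.zpowers (QuotientGroup.mk x : G ⧸ (⊤ : Subgroup G).lowerCentralSeries 1) = ⊤) :
    (⊤ : Subgroup G).lowerCentralSeries 1 ≤ (⊤ : Subgroup G).lowerCentralSeries 2 := by
  apply lcs_one_le_two_of_cyclic_quot x
  intro g
  have : (QuotientGroup.mk g : G ⧸ (⊤ : Subgroup G).lowerCentralSeries 1) ∈
      Subgroup.zpowers (QuotientGroup.mk x : G ⧸ (⊤ : Subgroup G).lowerCentralSeries 1) := by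
    rw [hz]; trivial
  obtain ⟨i, hi⟩ := Subgroup.mem_zpowers_iff.mp this
  refine ⟨i, ?_⟩
  rw [← QuotientGroup.mk_zpow] at hi
  exact QuotientGroup.eq.mp hi

theorem maxclass_lcs {G : Type*} [Group G] [Finite G] {p : ℕ} [Fact p.Prime] (n : ℕ)
    (hG : Nat.card G = p ^ n) (hcl : Group.nilpotencyClass G = n - 1) (hn : 3 ≤ n) :
    (⊤ : Subgroup G).lowerCentralSeries 2 ≠ (⊤ : Subgroup G).lowerCentralSeries 1 ∧
    (∀ k, 1 ≤ k → k ≤ n - 1 → ((⊤ : Subgroup G).lowerCentralSeries k).index = p ^ (k + 1)) := by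
  have hp : p.Prime := Fact.out
  have hGp : IsPGroup p G := IsPGroup.of_card hG
  haveI hnil : Group.IsNilpotent G := hGp.isNilpotent
  have hLanti : ∀ k, (⊤ : Subgroup G).lowerCentralSeries (k + 1) ≤
      (⊤ : Subgroup G).lowerCentralSeries k :=
    fun k => Subgroup.lowerCentralSeries_antitone _ (Nat.le_succ k)
  have hbot : (⊤ : Subgroup G).lowerCentralSeries (n - 1) = ⊥ := by
    rw [Subgroup.lowerCentralSeries_eq_bot_iff_nilpotencyClass_le, hcl]
  have hstab : ∀ k, (⊤ : Subgroup G).lowerCentralSeries (k + 1) =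
      (⊤ : Subgroup G).lowerCentralSeries k →
      ∀ j, (⊤ : Subgroup G).lowerCentralSeries (k + j) = (⊤ : Subgroup G).lowerCentralSeries k := by
    intro k hk j
    induction j with
    | zero => rfl
    | succ j ih =>
      have e : (⊤ : Subgroup G).lowerCentralSeries (k + (j + 1)) =
          ⁅(⊤ : Subgroup G).lowerCentralSeries (k + j), (⊤ : Subgroup G)⁆ := rfl
      have e' : (⊤ : Subgroup G).lowerCentralSeries (k + 1) =
          ⁅(⊤ : Subgroup G).lowerCentralSeries k, (⊤ : Subgroup G)⁆ := rfl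
      rw [e, ih, ← e', hk]
  have hstrict : ∀ k, k ≤ n - 2 → (⊤ : Subgroup G).lowerCentralSeries (k + 1) ≠
      (⊤ : Subgroup G).lowerCentralSeries k := by
    intro k hk heq
    have h1 := hstab k heq (n - 1 - k)
    have h2 : k + (n - 1 - k) = n - 1 := by omega
    rw [h2, hbot] at h1
    have h3 : Group.nilpotencyClass G ≤ k :=
      Subgroup.lowerCentralSeries_eq_bot_iff_nilpotencyClass_le.mp h1.symm
    omega
  have hcard : ∀ k, ∃ a, a ≤ n ∧ Nat.card ((⊤ : Subgroup G).lowerCentralSeries k) = p ^ a := by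
    intro k
    have := Subgroup.card_subgroup_dvd_card ((⊤ : Subgroup G).lowerCentralSeries k)
    rw [hG] at this
    exact (Nat.dvd_prime_pow hp).mp this
  choose a han ha using hcard
  have ha0 : a 0 = n := by
    have h1 : Nat.card ((⊤ : Subgroup G).lowerCentralSeries 0) = Nat.card G := Subgroup.card_top
    rw [ha 0, hG] at h1
    exact Nat.pow_right_injective hp.two_le h1
  have hdec : ∀ k, k ≤ n - 2 → a (k + 1) < a k := by
    intro k hk
    by_contra hle
    push_neg at hle
    apply hstrict k hk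
    apply Subgroup.eq_of_le_of_card_ge (hLanti k)
    rw [ha, ha]
    exact Nat.pow_le_pow_right hp.pos hle
  have habot : a (n - 1) = 0 := by
    have h1 : Nat.card ((⊤ : Subgroup G).lowerCentralSeries (n - 1)) = 1 := by
      rw [hbot]; exact Subgroup.card_bot
    rw [ha] at h1
    by_contra h0
    have : 1 < p ^ a (n - 1) := Nat.one_lt_pow h0 hp.one_lt
    omega
  have ha1 : a 1 ≤ n - 2 := by
    by_contra hgt
    have h1 : a (0 + 1) < a 0 := hdec 0 (by omega)
    have h2 : a 1 = n - 1 := by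
      have : a (0 + 1) = a 1 := rfl
      omega
    have hidx : ((⊤ : Subgroup G).lowerCentralSeries 1).index = p := by
      have h3 := Subgroup.card_mul_index ((⊤ : Subgroup G).lowerCentralSeries 1)
      rw [ha, hG, h2] at h3
      have e : p ^ n = p ^ (n - 1) * p := by rw [← pow_succ]; congr 1; omega
      rw [e] at h3
      exact Nat.eq_of_mul_eq_mul_left (pow_pos hp.pos _) h3
    have hQ : Nat.card (G ⧸ (⊤ : Subgroup G).lowerCentralSeries 1) = p := by
      rw [← Subgroup.index_eq_card]; exact hidx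
    have hne : (⊤ : Subgroup G).lowerCentralSeries 1 ≠ ⊤ := by
      intro h
      rw [h, Subgroup.index_top] at hidx
      exact hp.one_lt.ne hidx
    obtain ⟨x, hx⟩ : ∃ x, x ∉ (⊤ : Subgroup G).lowerCentralSeries 1 := by
      by_contra h
      push_neg at h
      exact hne (eq_top_iff.mpr fun y _ => h y)
    have hx1 : (QuotientGroup.mk x : G ⧸ (⊤ : Subgroup G).lowerCentralSeries 1) ≠ 1 := by
      rw [Ne, QuotientGroup.eq_one_iff]; exact hx
    have hz := zpowers_eq_top_of_prime_card hQ hx1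
    exact hstrict 1 (by omega) (le_antisymm (hLanti 1) (lcs_one_le_two_of_zpowers_top x hz))
  have hup : ∀ k, 1 ≤ k → k ≤ n - 1 → a k + k ≤ n - 1 := by
    intro k
    induction k with
    | zero => intro h; omega
    | succ k ih =>
      intro _ hk
      by_cases hk0 : k = 0
      · subst hk0
        show a 1 + 1 ≤ n - 1
        omega
      · have h1 := ih (by omega) (by omega)
        have h2 := hdec k (by omega)
        omega
  have hlow : ∀ j, j ≤ n - 1 → j ≤ a (n - 1 - j) := by
    intro j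
    induction j with
    | zero => intro _; omega
    | succ j ih =>
      intro hj
      have h1 := ih (by omega)
      have h2 := hdec (n - 1 - (j + 1)) (by omega)
      have h3 : n - 1 - (j + 1) + 1 = n - 1 - j := by omega
      rw [h3] at h2
      omega
  have haeq : ∀ k, 1 ≤ k → k ≤ n - 1 → a k = n - 1 - k := by
    intro k hk1 hk
    have h1 := hup k hk1 hk
    have h2 := hlow (n - 1 - k) (by omega)
    have h3 : n - 1 - (n - 1 - k) = k := by omega
    rw [h3] at h2
    omega
  refine ⟨hstrict 1 (by omega), ?_⟩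
  intro k hk1 hk
  have h3 := Subgroup.card_mul_index ((⊤ : Subgroup G).lowerCentralSeries k)
  rw [ha, hG, haeq k hk1 hk] at h3
  have e : p ^ n = p ^ (n - 1 - k) * p ^ (k + 1) := by rw [← pow_add]; congr 1; omega
  rw [e] at h3
  exact Nat.eq_of_mul_eq_mul_left (pow_pos hp.pos _) h3

theorem maxclass_normal_eq {G : Type*} [Group G] [Finite G] {p : ℕ} [Fact p.Prime] (n : ℕ)
    (hG : Nat.card G = p ^ n) (hcl : Group.nilpotencyClass G = n - 1) (hn : 3 ≤ n)
    (N : Subgroup G) [N.Normal] (r : ℕ) (hr : 2 ≤ r) (hN : N.index = p ^ r) :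
    N = (⊤ : Subgroup G).lowerCentralSeries (r - 1) := by
  have hp : p.Prime := Fact.out
  obtain ⟨-, hidx⟩ := maxclass_lcs n hG hcl hn
  have hrn : r ≤ n := by
    have h1 := Subgroup.index_dvd_card N
    rw [hN, hG] at h1
    exact (Nat.pow_dvd_pow_iff_le_right hp.one_lt).mp h1
  have hQ : Nat.card (G ⧸ N) = p ^ r := by rw [← Subgroup.index_eq_card]; exact hN
  have hc := Cfsg.Agent.Lib.Helper8.h8_class_le p r (G ⧸ N) hQ hr
  haveI : Group.IsNilpotent (G ⧸ N) := (IsPGroup.of_card hQ).isNilpotent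
  have hb : (⊤ : Subgroup (G ⧸ N)).lowerCentralSeries (r - 1) = ⊥ :=
    Subgroup.lowerCentralSeries_eq_bot_iff_nilpotencyClass_le.mpr hc
  have hle : (⊤ : Subgroup G).lowerCentralSeries (r - 1) ≤ N := by
    have h1 : Subgroup.map (QuotientGroup.mk' N) ((⊤ : Subgroup G).lowerCentralSeries (r - 1)) ≤
        (⊤ : Subgroup (G ⧸ N)).lowerCentralSeries (r - 1) := by
      rw [Subgroup.map_lowerCentralSeries]
      exact Subgroup.lowerCentralSeries_mono _ le_top
    rw [hb, le_bot_iff] at h1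
    intro g hg
    have h2 : (QuotientGroup.mk' N) g ∈
        Subgroup.map (QuotientGroup.mk' N) ((⊤ : Subgroup G).lowerCentralSeries (r - 1)) :=
      Subgroup.mem_map_of_mem _ hg
    rw [h1, Subgroup.mem_bot] at h2
    exact (QuotientGroup.eq_one_iff g).mp h2
  have h2 := hidx (r - 1) (by omega) (by omega)
  have h3 : r - 1 + 1 = r := by omega
  rw [h3] at h2
  have h5 := Subgroup.relIndex_mul_index hle
  rw [h2, hN] at h5
  have h6 : ((⊤ : Subgroup G).lowerCentralSeries (r - 1)).relIndex N = 1 :=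
    Nat.eq_of_mul_eq_mul_right (pow_pos hp.pos r) (by rw [h5, one_mul])
  exact le_antisymm (Subgroup.relIndex_eq_one.mp h6) hle

theorem maxclass_count {G : Type*} [Group G] [Finite G] {p : ℕ} [Fact p.Prime] (n : ℕ)
    (hG : Nat.card G = p ^ n) (hcl : Group.nilpotencyClass G = n - 1) (hn : 3 ≤ n) :
    Nat.card {N : Subgroup G // N.Normal ∧ N.index = p} = p + 1 := by
  classical
  have hp : p.Prime := Fact.out
  obtain ⟨hne, hidx⟩ := maxclass_lcs n hG hcl hn
  have hDidx : ((⊤ : Subgroup G).lowerCentralSeries 1).index = p ^ 2 := hidx 1 le_rfl (by omega)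
  have hDcomm : (⊤ : Subgroup G).lowerCentralSeries 1 =
      ⁅(⊤ : Subgroup G), (⊤ : Subgroup G)⁆ := rfl
  generalize hD : (⊤ : Subgroup G).lowerCentralSeries 1 = D at hDidx hDcomm
  haveI hDn : D.Normal := by rw [← hD]; infer_instance
  have hDcard : Nat.card D = p ^ (n - 2) := by
    have h1 := Subgroup.card_mul_index D
    rw [hDidx, hG] at h1
    have e : p ^ n = p ^ (n - 2) * p ^ 2 := by rw [← pow_add]; congr 1; omega
    rw [e] at h1
    exact Nat.eq_of_mul_eq_mul_right (pow_pos hp.pos 2) h1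
  have hQ : Nat.card (G ⧸ D) = p ^ 2 := by rw [← Subgroup.index_eq_card]; exact hDidx
  have hord : ∀ x : G, x ∉ D → orderOf (QuotientGroup.mk x : G ⧸ D) = p := by
    intro x hx
    have h1 : orderOf (QuotientGroup.mk x : G ⧸ D) ∣ p ^ 2 := by
      rw [← hQ]; exact orderOf_dvd_natCard _
    obtain ⟨j, hj, hjo⟩ := (Nat.dvd_prime_pow hp).mp h1
    have hx1 : (QuotientGroup.mk x : G ⧸ D) ≠ 1 := by
      rw [Ne, QuotientGroup.eq_one_iff]; exact hx
    have hj0 : j ≠ 0 := by
      rintro rfl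
      rw [pow_zero, orderOf_eq_one_iff] at hjo
      exact hx1 hjo
    have hj2 : j ≠ 2 := by
      rintro rfl
      have hz : Subgroup.zpowers (QuotientGroup.mk x : G ⧸ D) = ⊤ := by
        apply Subgroup.eq_top_of_card_eq
        rw [Nat.card_zpowers, hjo, hQ]
      apply hne
      apply le_antisymm (Subgroup.lowerCentralSeries_antitone _ (by norm_num))
      subst hD
      exact lcs_one_le_two_of_zpowers_top x hz
    have hj1 : j = 1 := by omega
    rw [hjo, hj1, pow_one]
  have hDM : ∀ x : G, D ≤ (Subgroup.zpowers (QuotientGroup.mk x : G ⧸ D)).comap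
      (QuotientGroup.mk' D) := by
    intro x d hd
    show (QuotientGroup.mk' D) d ∈ Subgroup.zpowers (QuotientGroup.mk x : G ⧸ D)
    rw [QuotientGroup.mk'_apply, (QuotientGroup.eq_one_iff d).mpr hd]
    exact Subgroup.one_mem _
  have hnormal : ∀ B : Subgroup G, D ≤ B → B.Normal := by
    intro B hB
    constructor
    intro b hb g
    have h1 : ⁅g, b⁆ ∈ D := by
      rw [hDcomm]
      exact Subgroup.commutator_mem_commutator (Subgroup.mem_top g) (Subgroup.mem_top b)
    have h2 : g * b * g⁻¹ = ⁅g, b⁆ * b := by rw [commutatorElement_def]; group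
    rw [h2]
    exact B.mul_mem (hB h1) hb
  have hMidx : ∀ x : G, x ∉ D → ((Subgroup.zpowers (QuotientGroup.mk x : G ⧸ D)).comap
      (QuotientGroup.mk' D)).index = p := by
    intro x hx
    rw [Subgroup.index_comap_of_surjective _ (QuotientGroup.mk'_surjective D)]
    have h1 := Subgroup.card_mul_index (Subgroup.zpowers (QuotientGroup.mk x : G ⧸ D))
    rw [Nat.card_zpowers, hord x hx, hQ, pow_two] at h1
    exact Nat.eq_of_mul_eq_mul_left hp.pos h1
  have hxM : ∀ x : G, x ∈ (Subgroup.zpowers (QuotientGroup.mk x : G ⧸ D)).comap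
      (QuotientGroup.mk' D) := fun x => Subgroup.mem_zpowers _
  have hDle : ∀ B : Subgroup G, B.Normal → B.index = p → D ≤ B := by
    intro B hBn hBi
    haveI := hBn
    have hQB : Nat.card (G ⧸ B) = p := by rw [← Subgroup.index_eq_card]; exact hBi
    haveI : IsCyclic (G ⧸ B) := isCyclic_of_prime_card hQB
    rw [hDcomm, Subgroup.commutator_le]
    intro g _ h _
    rw [← QuotientGroup.eq_one_iff, commutatorElement_def]
    simp only [QuotientGroup.mk_mul, QuotientGroup.mk_inv]
    have hc : (QuotientGroup.mk g : G ⧸ B) * QuotientGroup.mk h =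
        QuotientGroup.mk h * QuotientGroup.mk g := by
      obtain ⟨q, hq⟩ := IsCyclic.exists_generator (α := G ⧸ B)
      obtain ⟨i, hi⟩ := Subgroup.mem_zpowers_iff.mp (hq (QuotientGroup.mk g))
      obtain ⟨j, hj⟩ := Subgroup.mem_zpowers_iff.mp (hq (QuotientGroup.mk h))
      rw [← hi, ← hj, zpow_mul_comm]
    rw [hc]; group
  let φ : {x : G // x ∉ D} → {N : Subgroup G // N.Normal ∧ N.index = p} := fun x =>
    ⟨(Subgroup.zpowers (QuotientGroup.mk x.1 : G ⧸ D)).comap (QuotientGroup.mk' D),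
      hnormal _ (hDM x.1), hMidx x.1 x.2⟩
  haveI : Fintype {N : Subgroup G // N.Normal ∧ N.index = p} := Fintype.ofFinite _
  have hfib : ∀ B : {N : Subgroup G // N.Normal ∧ N.index = p},
      Nat.card {x : {x : G // x ∉ D} // φ x = B} = p ^ (n - 1) - p ^ (n - 2) := by
    intro B
    have hDB : D ≤ B.1 := hDle B.1 B.2.1 B.2.2
    have hBcard : Nat.card B.1 = p ^ (n - 1) := by
      have h1 := Subgroup.card_mul_index B.1
      rw [B.2.2, hG] at h1
      have e : p ^ n = p ^ (n - 1) * p := by rw [← pow_succ]; congr 1; omega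
      rw [e] at h1
      exact Nat.eq_of_mul_eq_mul_right hp.pos h1
    have hiff : ∀ x : {x : G // x ∉ D}, φ x = B ↔ x.1 ∈ B.1 := by
      intro x
      constructor
      · intro h
        have h1 : (Subgroup.zpowers (QuotientGroup.mk x.1 : G ⧸ D)).comap (QuotientGroup.mk' D) =
            B.1 := congrArg Subtype.val h
        rw [← h1]; exact hxM x.1
      · intro h
        apply Subtype.ext
        show (Subgroup.zpowers (QuotientGroup.mk x.1 : G ⧸ D)).comap (QuotientGroup.mk' D) = B.1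
        have hle : (Subgroup.zpowers (QuotientGroup.mk x.1 : G ⧸ D)).comap (QuotientGroup.mk' D) ≤
            B.1 := by
          intro g hg
          have hg' : (QuotientGroup.mk g : G ⧸ D) ∈
              Subgroup.zpowers (QuotientGroup.mk x.1 : G ⧸ D) := hg
          obtain ⟨i, hi⟩ := Subgroup.mem_zpowers_iff.mp hg'
          rw [← QuotientGroup.mk_zpow] at hi
          have h1 : (x.1 ^ i)⁻¹ * g ∈ D := QuotientGroup.eq.mp hi
          have h2 : g = x.1 ^ i * ((x.1 ^ i)⁻¹ * g) := by group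
          rw [h2]
          exact B.1.mul_mem (B.1.zpow_mem h i) (hDB h1)
        have h5 := Subgroup.relIndex_mul_index hle
        rw [hMidx x.1 x.2, B.2.2] at h5
        have h6 : ((Subgroup.zpowers (QuotientGroup.mk x.1 : G ⧸ D)).comap
            (QuotientGroup.mk' D)).relIndex B.1 = 1 :=
          Nat.eq_of_mul_eq_mul_right hp.pos (by rw [h5, one_mul])
        exact le_antisymm hle (Subgroup.relIndex_eq_one.mp h6)
    rw [Nat.card_congr ((Equiv.subtypeEquivRight hiff).trans
      (Equiv.subtypeSubtypeEquivSubtypeInter (fun x : G => x ∉ D) (fun x : G => x ∈ B.1)))]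
    have e : {x : G | x ∉ D ∧ x ∈ B.1} = (B.1 : Set G) \ (D : Set G) := by
      ext x
      simp only [Set.mem_ofPred_eq, Set.mem_sdiff, SetLike.mem_coe]
      tauto
    have h7 : Nat.card {x : G // x ∉ D ∧ x ∈ B.1} = ({x : G | x ∉ D ∧ x ∈ B.1}).ncard :=
      Nat.card_coe_set_eq _
    have h8 : ((B.1 : Set G)).ncard = Nat.card B.1 := (Nat.card_coe_set_eq _).symm
    have h9 : ((D : Set G)).ncard = Nat.card D := (Nat.card_coe_set_eq _).symm
    rw [h7, e, Set.ncard_sdiff (by exact hDB), h8, h9, hBcard, hDcard]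
  have htot : Nat.card {x : G // x ∉ D} = p ^ n - p ^ (n - 2) := by
    have e : {x : G | x ∉ D} = (Set.univ : Set G) \ (D : Set G) := by
      ext x
      simp only [Set.mem_ofPred_eq, Set.mem_sdiff, SetLike.mem_coe, Set.mem_univ, true_and]
    have h7 : Nat.card {x : G // x ∉ D} = ({x : G | x ∉ D}).ncard := Nat.card_coe_set_eq _
    have h9 : ((D : Set G)).ncard = Nat.card D := (Nat.card_coe_set_eq _).symm
    rw [h7, e, Set.ncard_sdiff (Set.subset_univ _), h9, Set.ncard_univ, hG, hDcard]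
  have hsum : Nat.card {x : G // x ∉ D} =
      ∑ B : {N : Subgroup G // N.Normal ∧ N.index = p},
        Nat.card {x : {x : G // x ∉ D} // φ x = B} := by
    rw [← Nat.card_sigma]
    exact Nat.card_congr (Equiv.sigmaFiberEquiv _).symm
  rw [htot, Finset.sum_congr rfl (fun B _ => hfib B), Finset.sum_const, Finset.card_univ,
    smul_eq_mul, ← Nat.card_eq_fintype_card] at hsum
  have e3 : p ^ n = p ^ (n - 2) * p ^ 2 := by rw [← pow_add]; congr 1; omega
  have e4 : p ^ (n - 1) = p ^ (n - 2) * p := by rw [← pow_succ]; congr 1; omega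
  rw [e3, e4] at hsum
  have hPpos : 0 < p ^ (n - 2) := pow_pos hp.pos _
  generalize p ^ (n - 2) = P at hsum hPpos
  generalize Nat.card {N : Subgroup G // N.Normal ∧ N.index = p} = t at hsum ⊢
  have hp1 := hp.one_lt
  clear hfib htot φ hMidx hord hxM hDM hDle hnormal hQ hDcard hDidx hidx hne hG hcl
  obtain ⟨q, rfl⟩ : ∃ q, p = q + 1 := ⟨p - 1, by omega⟩
  have hq0 : 0 < q := by omega
  have e1 : P * (q + 1) ^ 2 - P = P * q * (q + 2) := Nat.sub_eq_of_eq_add (by ring)
  have e2 : P * (q + 1) - P = P * q := Nat.sub_eq_of_eq_add (by ring)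
  rw [e1, e2] at hsum
  have hpos : 0 < P * q := Nat.mul_pos hPpos hq0
  have h10 : t * (P * q) = (q + 2) * (P * q) := by rw [← hsum]; ring
  have := Nat.eq_of_mul_eq_mul_right hpos h10
  omega

theorem maxclass_main {G : Type*} [Group G] [Finite G] {p : ℕ} [Fact p.Prime] (n : ℕ)
    (hG : Nat.card G = p ^ n) (hcl : Group.nilpotencyClass G = n - 1) (hn : 3 ≤ n) :
    (∀ (N : Subgroup G) [N.Normal] (r : ℕ), 2 ≤ r → N.index = p ^ r →
      N = (⊤ : Subgroup G).lowerCentralSeries (r - 1)) ∧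
    Nat.card {N : Subgroup G // N.Normal ∧ N.index = p} = p + 1 :=
  ⟨fun N _ r hr hN => maxclass_normal_eq n hG hcl hn N r hr hN, maxclass_count n hG hcl hn⟩

end Cfsg.Agent.Lib.Helper1
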