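import Cfsg.Agent.Lib.Helper1.Rank2
import Cfsg.Agent.Lib.Helper8.PGroupNormal
import Cfsg.Agent.Lib.Helper8.CoprimeSylow
import Mathlib.GroupTheory.SpecificGroups.Cyclic

set_option autoImplicit false

namespace Cfsg.Agent.Lib.Helper1

open Cfsg.Agent.Lib.Helper8

/-- From `m_p(H) ≥ 2`: a noncyclic elementary abelian `p`-subgroup of `H`, as a subgroup of the
ambient group. -/
theorem rank2_subgroup {G : Type*} [Group G] [Finite G] {p : ℕ} [Fact p.Prime] (H : Subgroup G)
    (hrank : Cfsg.PRankAtLeast p 2 ↥H) :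
    ∃ A : Subgroup G, A ≤ H ∧ IsMulCommutative A ∧ ¬ IsCyclic A ∧ IsPGroup p A ∧
      (∀ a ∈ A, a ≠ 1 → orderOf a = p) := by
  classical
  have hp : p.Prime := Fact.out
  obtain ⟨A0, hA0c, hA0e, hA0card⟩ := hrank
  set A : Subgroup G := A0.map H.subtype with hA
  have hAH : A ≤ H := Subgroup.map_subtype_le _
  have hAe : ∀ a ∈ A, a ^ p = 1 := by
    rintro _ ⟨a, ha, rfl⟩
    rw [← map_pow, hA0e a ha, map_one]
  have hAcard : Nat.card A = Nat.card A0 :=
    Subgroup.card_map_of_injective H.subtype_injective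
  have hAp : IsPGroup p A := by
    intro a
    refine ⟨1, ?_⟩
    apply Subtype.ext
    rw [pow_one, Subgroup.coe_pow]
    exact hAe a a.2
  have hncyc : ¬ IsCyclic A := by
    intro hcyc
    have h1 : Monoid.exponent A = Nat.card A := IsCyclic.exponent_eq_card
    have h2 : Monoid.exponent A ∣ p := by
      apply Monoid.exponent_dvd_of_forall_pow_eq_one
      intro a
      apply Subtype.ext
      rw [Subgroup.coe_pow]
      exact hAe a a.2
    rw [h1] at h2
    have h3 := Nat.le_of_dvd hp.pos h2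
    rw [hAcard] at h3
    have h4 : p < p ^ 2 := by
      rw [pow_two]; nlinarith [hp.one_lt]
    omega
  refine ⟨A, hAH, inferInstance, hncyc, hAp, ?_⟩
  intro a haA hane
  have h1 : orderOf a ∣ p := orderOf_dvd_of_pow_eq_one (hAe a haA)
  rcases (Nat.dvd_prime hp).mp h1 with h | h
  · exact absurd (orderOf_eq_one_iff.mp h) hane
  · exact h

/-- If an element `a` of prime order `p` has trivial centralizer in the normal subgroup `K`,
then `p ∤ |K|`. -/
theorem not_dvd_card_of_fpf {G : Type*} [Group G] [Finite G] {p : ℕ} [Fact p.Prime]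
    (K : Subgroup G) [hKn : K.Normal] {a : G} (hao : orderOf a = p)
    (hfix : K ⊓ Subgroup.centralizer ({a} : Set G) = ⊥) : ¬ p ∣ Nat.card K := by
  classical
  intro hpK
  obtain ⟨k₀, hk₀⟩ := exists_prime_orderOf_dvd_card' p hpK
  have hk₀o : orderOf (k₀ : G) = p := by rw [Subgroup.orderOf_coe]; exact hk₀
  have hzp : IsPGroup p (Subgroup.zpowers a) := by
    apply IsPGroup.of_card (n := 1)
    rw [Nat.card_zpowers, hao, pow_one]
  obtain ⟨S, hS⟩ := hzp.exists_le_sylow
  have haS : a ∈ (S : Subgroup G) := hS (Subgroup.mem_zpowers a)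
  have hidx : ¬ p ∣ (S : Subgroup G).relIndex ⊤ := by
    rw [Subgroup.relIndex_top_right]; exact S.not_dvd_index
  have hzk : IsPGroup p (Subgroup.zpowers (k₀ : G)) := by
    apply IsPGroup.of_card (n := 1)
    rw [Nat.card_zpowers, hk₀o, pow_one]
  obtain ⟨l, -, hle⟩ := h8_exists_conj_le_of_relIndex (le_top : (S : Subgroup G) ≤ ⊤)
    (le_top : Subgroup.zpowers (k₀ : G) ≤ ⊤) S.isPGroup' hzk hidx
  have hk₁S : l * (k₀ : G) * l⁻¹ ∈ (S : Subgroup G) := hle ⟨k₀, Subgroup.mem_zpowers _, rfl⟩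
  have hk₁K : l * (k₀ : G) * l⁻¹ ∈ K := hKn.conj_mem _ k₀.2 l
  have hk₁ne : l * (k₀ : G) * l⁻¹ ≠ 1 := by
    intro h
    have h1 : (k₀ : G) = 1 := by
      have h2 : (k₀ : G) = l⁻¹ * (l * (k₀ : G) * l⁻¹) * l := by group
      rw [h2, h]; group
    rw [h1, orderOf_one] at hk₀o
    exact (Fact.out : p.Prime).one_lt.ne hk₀o
  set N : Subgroup ↥(S : Subgroup G) := K.subgroupOf (S : Subgroup G) with hN
  have hNne : N ≠ ⊥ := by
    intro hbot
    have h1 : (⟨l * (k₀ : G) * l⁻¹, hk₁S⟩ : ↥(S : Subgroup G)) ∈ N := by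
      rw [hN, Subgroup.mem_subgroupOf]; exact hk₁K
    rw [hbot, Subgroup.mem_bot] at h1
    exact hk₁ne (congrArg Subtype.val h1)
  have h2 := h8_normal_inf_center_ne_bot S.isPGroup' N hNne
  obtain ⟨t, ht, ht1⟩ : ∃ t ∈ N ⊓ Subgroup.center ↥(S : Subgroup G), t ≠ 1 := by
    by_contra hall
    push Not at hall
    exact h2 (eq_bot_iff.mpr (fun y hy => Subgroup.mem_bot.mpr (hall y hy)))
  have htK : (t : G) ∈ K := Subgroup.mem_subgroupOf.mp (Subgroup.mem_inf.mp ht).1
  have htc := Subgroup.mem_center_iff.mp (Subgroup.mem_inf.mp ht).2 ⟨a, haS⟩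
  have htC : (t : G) ∈ Subgroup.centralizer ({a} : Set G) := by
    rw [Subgroup.mem_centralizer_singleton_iff]
    exact (congrArg Subtype.val htc).symm
  have h3 : (t : G) ∈ K ⊓ Subgroup.centralizer ({a} : Set G) := Subgroup.mem_inf.mpr ⟨htK, htC⟩
  rw [hfix, Subgroup.mem_bot] at h3
  exact ht1 (Subtype.ext h3)

end Cfsg.Agent.Lib.Helper1
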