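import Mathlib
import Cfsg.Agent.Lib.Helper8.PSL2Spec

set_option autoImplicit false

universe u

namespace Cfsg.Agent.Lib.Helper1

/-- homs out of a (generalized) quaternion group -/
theorem quat_hom {G : Type*} [Group G] (n : ℕ) [NeZero n] (a x : G)
    (ha : a ^ (2 * n) = 1) (hinv : x * a * x⁻¹ = a⁻¹) (hx2 : x ^ 2 = a ^ n) :
    ∃ f : QuaternionGroup n →* G, f (QuaternionGroup.a 1) = a ∧ f (QuaternionGroup.xa 0) = x := by
  have hn : 0 < n := Nat.pos_of_ne_zero (NeZero.ne n)
  haveI : NeZero (2 * n) := ⟨by omega⟩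
  set E : ZMod (2 * n) → G := fun i => a ^ i.val with hE
  have E_add : ∀ i j, E (i + j) = E i * E j := by
    intro i j
    simp only [hE]
    rw [ZMod.val_add, ← pow_add]
    exact (pow_eq_pow_mod _ ha).symm
  have E_n : E (n : ZMod (2 * n)) = a ^ n := by
    simp only [hE]
    rw [ZMod.val_natCast_of_lt (by omega)]
  have E_comm : ∀ i j, E i * E j = E j * E i := fun i j => by
    rw [← E_add, ← E_add, add_comm]
  have E_sub : ∀ i j, E (j - i) = (E i)⁻¹ * E j := by
    intro i j
    have h1 : E (j - i) * E i = E j := by rw [← E_add, sub_add_cancel]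
    rw [← h1, E_comm (j - i) i]; group
  have xE : ∀ i, E i * x = x * (E i)⁻¹ := by
    intro i
    simp only [hE]
    have h1 : x * a ^ i.val * x⁻¹ = (a ^ i.val)⁻¹ := by rw [← conj_pow, hinv, inv_pow]
    calc a ^ i.val * x = (x * a ^ i.val * x⁻¹)⁻¹ * x := by rw [h1, inv_inv]
      _ = x * (a ^ i.val)⁻¹ := by group
  let f : QuaternionGroup n → G := fun q => match q with
    | QuaternionGroup.a i => E i
    | QuaternionGroup.xa i => x * E i
  have hf_mul : ∀ q r, f (q * r) = f q * f r := by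
    rintro (i | i) (j | j)
    · show E (i + j) = E i * E j
      exact E_add i j
    · show x * E (j - i) = E i * (x * E j)
      rw [E_sub, ← mul_assoc (E i), xE]; group
    · show x * E (i + j) = x * E i * E j
      rw [E_add, mul_assoc]
    · show E ((n : ZMod (2 * n)) + j - i) = x * E i * (x * E j)
      have e1 : (n : ZMod (2 * n)) + j - i = n + (j - i) := by ring
      rw [e1, E_add, E_n, E_sub, ← hx2]
      calc x ^ 2 * ((E i)⁻¹ * E j) = x * (x * (E i)⁻¹) * E j := by rw [pow_two]; group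
        _ = x * (E i * x) * E j := by rw [xE]
        _ = x * E i * (x * E j) := by group
  refine ⟨MonoidHom.mk' f hf_mul, ?_, ?_⟩
  · show E 1 = a
    simp only [hE]
    have h1 : (1 : ZMod (2 * n)).val = 1 := by
      haveI : Fact (1 < 2 * n) := ⟨by omega⟩
      exact ZMod.val_one (2 * n)
    rw [h1, pow_one]
  · show x * E 0 = x
    simp only [hE]
    rw [ZMod.val_zero, pow_zero, mul_one]

def th0fun : QuaternionGroup 2 → QuaternionGroup 2 := fun q => match q with
  | QuaternionGroup.a i => if i = 0 then QuaternionGroup.a 0 else if i = 1 then QuaternionGroup.xa 0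
      else if i = 2 then QuaternionGroup.a 2 else QuaternionGroup.xa 2
  | QuaternionGroup.xa i => if i = 0 then QuaternionGroup.xa 3 else if i = 1 then QuaternionGroup.a 3
      else if i = 2 then QuaternionGroup.xa 1 else QuaternionGroup.a 1

theorem th0fun_mul : ∀ x y, th0fun (x * y) = th0fun x * th0fun y := by decide

theorem th0fun_cube : ∀ x, th0fun (th0fun (th0fun x)) = x := by decide

def th0 : MulAut (QuaternionGroup 2) :=
  { toFun := th0fun
    invFun := fun x => th0fun (th0fun x)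
    left_inv := th0fun_cube
    right_inv := th0fun_cube
    map_mul' := th0fun_mul }

theorem th0_pow3 : th0 ^ 3 = 1 := by
  apply MulEquiv.ext
  intro x
  exact th0fun_cube x

theorem th0_a : th0 (QuaternionGroup.a 1) = QuaternionGroup.xa 0 := by decide

theorem th0_xa : th0 (QuaternionGroup.xa 0) = QuaternionGroup.a 1 * QuaternionGroup.xa 0 := by
  decide

def zmod3Hom {Z : Type*} [Group Z] (c : Z) (hc : c ^ 3 = 1) : Multiplicative (ZMod 3) →* Z where
  toFun e := c ^ (Multiplicative.toAdd e).val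
  map_one' := by simp
  map_mul' e₁ e₂ := by
    show c ^ (Multiplicative.toAdd (e₁ * e₂)).val = _
    rw [toAdd_mul, ZMod.val_add, ← pow_add]
    exact (pow_eq_pow_mod _ hc).symm

theorem sl23_model {Z : Type*} [Group Z] [Finite Z] (i j c : Z) (hi4 : i ^ 4 = 1)
    (hi2 : i ^ 2 ≠ 1) (hj2 : j ^ 2 = i ^ 2) (hji : j * i * j⁻¹ = i⁻¹) (hc3 : c ^ 3 = 1)
    (hci : c * i * c⁻¹ = j) (hcj : c * j * c⁻¹ = i * j) (hcard : Nat.card Z ≤ 24) :
    Nonempty (QuaternionGroup 2 ⋊[zmod3Hom th0 th0_pow3] Multiplicative (ZMod 3) ≃* Z) := by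
  classical
  obtain ⟨ρ, hρa, hρx⟩ := quat_hom 2 i j (by simpa using hi4) hji hj2
  have hgen : ∀ (f g : QuaternionGroup 2 →* Z),
      f (QuaternionGroup.a 1) = g (QuaternionGroup.a 1) →
      f (QuaternionGroup.xa 0) = g (QuaternionGroup.xa 0) → f = g := by
    intro f g h1 h2
    have key : ∀ q : QuaternionGroup 2, ∃ k < 4, ∃ l < 2,
        q = (QuaternionGroup.a 1) ^ k * (QuaternionGroup.xa 0) ^ l := by decide
    ext q
    obtain ⟨k, -, l, -, rfl⟩ := key q
    rw [map_mul, map_mul, map_pow, map_pow, map_pow, map_pow, h1, h2]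
  have hcomp1 : ρ.comp th0.toMonoidHom = (MulAut.conj c).toMonoidHom.comp ρ := by
    apply hgen
    · show ρ (th0 (QuaternionGroup.a 1)) = c * ρ (QuaternionGroup.a 1) * c⁻¹
      rw [th0_a, hρx, hρa, hci]
    · show ρ (th0 (QuaternionGroup.xa 0)) = c * ρ (QuaternionGroup.xa 0) * c⁻¹
      rw [th0_xa, map_mul, hρx, hρa, hcj]
  have hcompk : ∀ k : ℕ, ∀ q, ρ ((th0 ^ k) q) = c ^ k * ρ q * (c ^ k)⁻¹ := by
    intro k
    induction k with
    | zero => intro q; simp
    | succ k ih =>
      intro q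
      rw [pow_succ', MulAut.mul_apply]
      have h1 : ρ (th0 ((th0 ^ k) q)) = c * ρ ((th0 ^ k) q) * c⁻¹ := DFunLike.congr_fun hcomp1 _
      rw [h1, ih, pow_succ']; group
  have hcomp : ∀ e : Multiplicative (ZMod 3),
      ρ.comp (MulEquiv.toMonoidHom (zmod3Hom th0 th0_pow3 e)) =
        (MulEquiv.toMonoidHom (MulAut.conj (zmod3Hom c hc3 e))).comp ρ := by
    intro e
    ext q
    exact hcompk _ q
  obtain ⟨Ψ, hΨ⟩ : ∃ Ψ : QuaternionGroup 2 ⋊[zmod3Hom th0 th0_pow3] Multiplicative (ZMod 3) →* Z,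
      ∀ x, Ψ x = ρ x.left * c ^ (Multiplicative.toAdd x.right).val :=
    ⟨SemidirectProduct.lift ρ (zmod3Hom c hc3) hcomp, fun x => rfl⟩
  have hc1 : c ≠ 1 := by
    intro h
    rw [h] at hci
    apply hi2
    have h1 : j = i := by rw [← hci]; simp
    rw [h1, mul_inv_cancel_right] at hji
    rw [pow_two]
    nth_rewrite 1 [hji]
    exact inv_mul_cancel i
  have hρinj : ∀ q, ρ q = 1 → q = 1 := by
    intro q hq
    by_contra hne
    have key : ∀ q : QuaternionGroup 2, q ≠ 1 →
        q = QuaternionGroup.a 1 ^ 2 ∨ q ^ 2 = QuaternionGroup.a 1 ^ 2 := by decide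
    apply hi2
    rcases key q hne with h | h
    · rw [← hρa, ← map_pow, ← h, hq]
    · rw [← hρa, ← map_pow, ← h, map_pow, hq, one_pow]
  have hq4 : ∀ q : QuaternionGroup 2, q ^ 4 = 1 := by decide
  have hΨinj : Function.Injective Ψ := by
    rw [injective_iff_map_eq_one]
    intro x hx
    rw [hΨ] at hx
    have hk : (Multiplicative.toAdd x.right).val < 3 := ZMod.val_lt _
    have hck : c ^ (Multiplicative.toAdd x.right).val = ρ (x.left⁻¹) := by
      rw [map_inv]; exact (eq_inv_of_mul_eq_one_right hx)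
    have hck4 : (c ^ (Multiplicative.toAdd x.right).val) ^ 4 = 1 := by
      rw [hck, ← map_pow, hq4, map_one]
    have hr : (Multiplicative.toAdd x.right).val = 0 := by
      by_contra hne
      apply hc1
      have hcases : (Multiplicative.toAdd x.right).val = 1 ∨
          (Multiplicative.toAdd x.right).val = 2 := by omega
      rcases hcases with h | h
      · rw [h, pow_one] at hck4
        calc c = c ^ 4 * (c ^ 3)⁻¹ := by group
          _ = 1 := by rw [hck4, hc3]; simp
      · rw [h, ← pow_mul] at hck4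
        calc c = (c ^ 3) ^ 3 * (c ^ (2 * 4))⁻¹ := by group
          _ = 1 := by rw [hck4, hc3]; simp
    rw [hr, pow_zero, mul_one] at hx
    have hl := hρinj _ hx
    apply SemidirectProduct.ext
    · exact hl
    · have h0 : Multiplicative.toAdd x.right = 0 := (ZMod.val_eq_zero _).mp hr
      exact h0
  have hcardM : Nat.card (QuaternionGroup 2 ⋊[zmod3Hom th0 th0_pow3] Multiplicative (ZMod 3))
      = 24 := by
    rw [SemidirectProduct.card, Nat.card_eq_fintype_card, QuaternionGroup.card]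
    have h3 : Nat.card (Multiplicative (ZMod 3)) = 3 := show Nat.card (ZMod 3) = 3 from Nat.card_zmod 3
    rw [h3]
  exact ⟨MulEquiv.ofBijective Ψ (hΨinj.bijective_of_nat_card_le (by rw [hcardM]; exact hcard))⟩

def sI : Matrix.SpecialLinearGroup (Fin 2) (ZMod 3) := ⟨!![0, -1; 1, 0], by decide⟩

def sJ : Matrix.SpecialLinearGroup (Fin 2) (ZMod 3) := ⟨!![1, 1; 1, 2], by decide⟩

def sA : Matrix.SpecialLinearGroup (Fin 2) (ZMod 3) := ⟨!![1, 1; 0, 1], by decide⟩

theorem sl23_iso : Nonempty (QuaternionGroup 2 ⋊[zmod3Hom th0 th0_pow3] Multiplicative (ZMod 3) ≃*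
    Matrix.SpecialLinearGroup (Fin 2) (ZMod 3)) := by
  haveI : Fact (Nat.Prime 3) := ⟨by norm_num⟩
  apply sl23_model sI sJ sA (by decide) (by decide) (by decide) (by decide) (by decide)
    (by decide) (by decide)
  have h := Cfsg.Agent.Lib.Helper8.h8_card_SL2 (F := ZMod 3)
  rw [ZMod.card] at h
  exact h.le

end Cfsg.Agent.Lib.Helper1
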