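import Mathlib
import Cfsg.Agent.Lib.Helper1.SL23
import Cfsg.Agent.Lib.Helper7.PCore
import Cfsg.Agent.Lib.Helper8.PSolvOfSolv

set_option autoImplicit false
set_option maxRecDepth 100000

namespace Cfsg.Agent.Lib.Helper1

local notation "X3" => Matrix.SpecialLinearGroup (Fin 2) (ZMod 3)

/-- the central involution of `SL(2,3)` -/
def sN : X3 := ⟨!![2, 0; 0, 2], by decide⟩

theorem sN_ne_one : sN ≠ 1 := by decide

theorem sN_sq : sN ^ 2 = 1 := by decide

theorem sl23_d6 : ∀ t : X3, t ^ 2 = 1 → t = 1 ∨ t = sN := by decide +kernel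

theorem sl23_d4 : ∀ y : X3, y * sN = sN * y := by decide +kernel

theorem sl23_d3 : ∀ z : X3, (∀ y : X3, y * z = z * y) → z = 1 ∨ z = sN := by decide +kernel

theorem sl23_d7 : ∀ x : X3, x = 1 ∨ x = sN ∨ x ^ 2 = sN ∨
    ∃ g : X3, (x * g * x⁻¹ * g⁻¹) ^ 2 = sN := by decide +kernel

theorem sl23_d2 : ∀ w x : X3, w ^ 2 = sN → x ^ 4 = 1 →
    x = 1 ∨ x = sN ∨ ∃ g : X3, x = g * w * g⁻¹ := by
  decide +kernel

theorem sl23_w : (sA * sI * sA⁻¹ * sI⁻¹) ^ 2 = sN := by decide

theorem sA_cube : sA ^ 3 = 1 := by decide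

theorem sA_ne_one : sA ≠ 1 := by decide

theorem quat8_pow4 : ∀ q : QuaternionGroup 2, q ^ 4 = 1 := by decide

theorem aux24 : ∀ n : ℕ, n ≤ 24 → n ∣ 24 → 8 ∣ n → n = 8 ∨ n = 24 := by decide

theorem sl23_card : Nat.card X3 = 24 := by
  have h := Cfsg.Agent.Lib.Helper8.h8_card_SL2 (F := ZMod 3)
  rw [ZMod.card] at h
  exact h

theorem sN_mem_center : sN ∈ Subgroup.center X3 := by
  rw [Subgroup.mem_center_iff]; intro y; exact sl23_d4 y

theorem sl23_center_eq : Subgroup.center X3 = Subgroup.zpowers sN := by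
  apply le_antisymm
  · intro z hz
    rcases sl23_d3 z (fun y => (Subgroup.mem_center_iff.mp hz) y) with h | h
    · rw [h]; exact one_mem _
    · rw [h]; exact Subgroup.mem_zpowers _
  · rw [Subgroup.zpowers_le]; exact sN_mem_center

theorem orderOf_sN : orderOf sN = 2 := orderOf_eq_prime sN_sq sN_ne_one

theorem sl23_center_card : Nat.card (Subgroup.center X3) = 2 := by
  rw [sl23_center_eq, Nat.card_zpowers, orderOf_sN]

theorem sN_mem_of_normal (N : Subgroup X3) [hN : N.Normal] (hne : N ≠ ⊥) : sN ∈ N := by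
  obtain ⟨⟨y, hy⟩, hy1⟩ := (Subgroup.ne_bot_iff_exists_ne_one).mp hne
  have hy1' : y ≠ 1 := fun h => hy1 (Subtype.ext h)
  rcases sl23_d7 y with h | h | h | ⟨g, h⟩
  · exact absurd h hy1'
  · rw [← h]; exact hy
  · rw [← h]; exact pow_mem hy 2
  · rw [← h]
    have h1 : g * y⁻¹ * g⁻¹ ∈ N := hN.conj_mem _ (inv_mem hy) g
    have h2 : y * g * y⁻¹ * g⁻¹ = y * (g * y⁻¹ * g⁻¹) := by group
    rw [h2]; exact pow_mem (mul_mem hy h1) 2

theorem sl23_struct : ∃ (f : QuaternionGroup 2 →* X3) (ψ : X3 →* Multiplicative (ZMod 3)),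
    Function.Injective f ∧ f.range = ψ.ker := by
  obtain ⟨e⟩ := sl23_iso
  refine ⟨e.toMonoidHom.comp SemidirectProduct.inl,
    SemidirectProduct.rightHom.comp e.symm.toMonoidHom, ?_, ?_⟩
  · exact e.injective.comp SemidirectProduct.inl_injective
  · ext x
    simp only [MonoidHom.mem_range, MonoidHom.mem_ker, MonoidHom.comp_apply,
      MulEquiv.coe_toMonoidHom]
    constructor
    · rintro ⟨q, rfl⟩
      rw [MulEquiv.symm_apply_apply, SemidirectProduct.rightHom_inl]
    · intro h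
      have h1 : e.symm x ∈ (SemidirectProduct.rightHom :
          QuaternionGroup 2 ⋊[zmod3Hom th0 th0_pow3] Multiplicative (ZMod 3) →* _).ker := h
      rw [← SemidirectProduct.range_inl_eq_ker_rightHom] at h1
      obtain ⟨q, hq⟩ := h1
      exact ⟨q, by rw [hq, MulEquiv.apply_symm_apply]⟩

theorem sl23_range_le (f : QuaternionGroup 2 →* X3) (N : Subgroup X3) [hN : N.Normal] (w : X3)
    (hw : w ∈ N) (hw2 : w ^ 2 = sN) : f.range ≤ N := by
  rintro x ⟨q, rfl⟩
  have hx4 : (f q) ^ 4 = 1 := by rw [← map_pow, quat8_pow4 q, map_one]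
  rcases sl23_d2 w (f q) hw2 hx4 with h | h | ⟨g, h⟩
  · rw [h]; exact one_mem _
  · rw [h, ← hw2]; exact pow_mem hw 2
  · rw [h]; exact hN.conj_mem _ hw g

theorem sl23_comm_eq (f : QuaternionGroup 2 →* X3) (ψ : X3 →* Multiplicative (ZMod 3))
    (hfψ : f.range = ψ.ker) : commutator X3 = f.range := by
  apply le_antisymm
  · rw [hfψ]; exact Abelianization.commutator_subset_ker ψ
  · have hw : sA * sI * sA⁻¹ * sI⁻¹ ∈ commutator X3 := by
      rw [commutator_def]
      have h := Subgroup.commutator_mem_commutator (Subgroup.mem_top sA) (Subgroup.mem_top sI)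
      rwa [commutatorElement_def] at h
    exact sl23_range_le f (commutator X3) _ hw sl23_w

theorem sl23_comm_card_iso : Nat.card (commutator X3) = 8 ∧
    Nonempty (commutator X3 ≃* QuaternionGroup 2) := by
  obtain ⟨f, ψ, hinj, hfψ⟩ := sl23_struct
  have hc := sl23_comm_eq f ψ hfψ
  have e1 : QuaternionGroup 2 ≃* f.range := MonoidHom.ofInjective hinj
  have e2 : QuaternionGroup 2 ≃* commutator X3 := e1.trans (MulEquiv.subgroupCongr hc.symm)
  refine ⟨?_, ⟨e2.symm⟩⟩
  rw [← Nat.card_congr e2.toEquiv, Nat.card_eq_fintype_card, QuaternionGroup.card]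

theorem sl23_sylow3_card (P : Sylow 3 X3) : Nat.card (P : Subgroup X3) = 3 := by
  haveI : Fact (Nat.Prime 3) := ⟨by norm_num⟩
  obtain ⟨k, hk⟩ := IsPGroup.iff_card.mp P.2
  have h1 : Nat.card (P : Subgroup X3) * (P : Subgroup X3).index = 24 := by
    rw [Subgroup.card_mul_index, sl23_card]
  have h2 : ¬ 3 ∣ (P : Subgroup X3).index := P.not_dvd_index
  rw [hk] at h1 ⊢
  rcases k with _ | _ | k
  · exfalso; apply h2
    rw [pow_zero, one_mul] at h1
    rw [h1]; norm_num
  · norm_num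
  · exfalso
    have h3 : 9 * (3 ^ k * (P : Subgroup X3).index) = 24 := by rw [← h1]; ring
    omega

theorem sl23_sylow3_compl (P : Sylow 3 X3) :
    Subgroup.IsComplement' (commutator X3) (P : Subgroup X3) := by
  apply Subgroup.isComplement'_of_coprime
  · rw [sl23_comm_card_iso.1, sl23_sylow3_card P, sl23_card]
  · rw [sl23_comm_card_iso.1, sl23_sylow3_card P]; norm_num

theorem sl23_normal_class (N : Subgroup X3) (hN : N.Normal) :
    N = ⊥ ∨ N = ⊤ ∨ N = Subgroup.center X3 ∨ N = commutator X3 := by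
  haveI := hN
  by_cases hbot : N = ⊥
  · exact Or.inl hbot
  right
  have hsN : sN ∈ N := sN_mem_of_normal N hbot
  obtain ⟨f, ψ, hinj, hfψ⟩ := sl23_struct
  have hc := sl23_comm_eq f ψ hfψ
  have hc8 : Nat.card (commutator X3) = 8 := sl23_comm_card_iso.1
  have hdvd : Nat.card N ∣ 24 := by rw [← sl23_card]; exact Subgroup.card_subgroup_dvd_card N
  by_cases hw : ∃ w ∈ N, w ^ 2 = sN
  · obtain ⟨w, hwN, hw2⟩ := hw
    have hle : commutator X3 ≤ N := by rw [hc]; exact sl23_range_le f N w hwN hw2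
    have h8 : 8 ∣ Nat.card N := by rw [← hc8]; exact Subgroup.card_dvd_of_le hle
    rcases aux24 _ (Nat.le_of_dvd (by norm_num) hdvd) hdvd h8 with h | h
    · right; right
      exact (Subgroup.eq_of_le_of_card_ge hle (by rw [hc8, h])).symm
    · left
      rw [← Subgroup.card_eq_iff_eq_top, h, sl23_card]
  · right; left
    rw [sl23_center_eq]
    apply le_antisymm
    · intro x hx
      rcases sl23_d7 x with h | h | h | ⟨g, h⟩
      · rw [h]; exact one_mem _
      · rw [h]; exact Subgroup.mem_zpowers _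
      · exact absurd ⟨x, hx, h⟩ hw
      · exfalso
        apply hw
        refine ⟨x * g * x⁻¹ * g⁻¹, ?_, h⟩
        have h1 : g * x⁻¹ * g⁻¹ ∈ N := hN.conj_mem _ (inv_mem hx) g
        have h2 : x * g * x⁻¹ * g⁻¹ = x * (g * x⁻¹ * g⁻¹) := by group
        rw [h2]; exact mul_mem hx h1
    · rw [Subgroup.zpowers_le]; exact hsN

theorem sl23_solvable : Group.IsSolvable X3 := by
  obtain ⟨f, ψ, hinj, hfψ⟩ := sl23_struct
  haveI : Fact (Nat.Prime 2) := ⟨Nat.prime_two⟩
  have hQ : IsPGroup 2 (QuaternionGroup 2) :=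
    IsPGroup.of_card (n := 3) (by rw [Nat.card_eq_fintype_card, QuaternionGroup.card]; norm_num)
  haveI : Group.IsNilpotent (QuaternionGroup 2) := hQ.isNilpotent
  haveI : Group.IsSolvable (QuaternionGroup 2) := inferInstance
  exact Group.isSolvable_of_ker_le_range f ψ (le_of_eq hfψ.symm)

theorem sl23_pPrimeCore : Cfsg.pPrimeCore 2 X3 = ⊥ := by
  by_contra hne
  haveI := Cfsg.Agent.Lib.Helper7.pPrimeCore_normal 2 X3
  have h1 := sN_mem_of_normal _ hne
  have h2 : (Nat.card ↥(Cfsg.pPrimeCore 2 X3)).Coprime 2 :=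
    Cfsg.Agent.Lib.Helper7.pPrimeCore_coprime 2 X3
  have h3 : 2 ∣ Nat.card ↥(Cfsg.pPrimeCore 2 X3) := by
    have h := orderOf_dvd_natCard (⟨sN, h1⟩ : ↥(Cfsg.pPrimeCore 2 X3))
    rwa [Subgroup.orderOf_mk, orderOf_sN] at h
  exact absurd (Nat.Coprime.eq_one_of_dvd h2.symm h3) (by norm_num)

end Cfsg.Agent.Lib.Helper1
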