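import Mathlib

set_option autoImplicit false
set_option maxHeartbeats 1000000

namespace Cfsg.Agent.Lib.Helper1

open Module

/-- existence of subspaces of every smaller dimension -/
theorem exists_le_finrank_eq {F V : Type*} [Field F] [AddCommGroup V] [Module F V]
    [FiniteDimensional F V] (S : Submodule F V) :
    ∀ k : ℕ, k ≤ finrank F ↥S → ∃ W : Submodule F V, W ≤ S ∧ finrank F ↥W = k := by
  intro k
  induction k with
  | zero => intro _; exact ⟨⊥, bot_le, finrank_bot F V⟩
  | succ k ih =>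
    intro hk
    obtain ⟨W, hWS, hW⟩ := ih (by omega)
    have hne : W ≠ S := by
      rintro rfl
      omega
    have hlt : W < S := lt_of_le_of_ne hWS hne
    obtain ⟨v, hvS, hvW⟩ := SetLike.exists_of_lt hlt
    refine ⟨W ⊔ Submodule.span F {v},
      sup_le hWS (by rw [Submodule.span_singleton_le_iff_mem]; exact hvS), ?_⟩
    have hv0 : v ≠ 0 := by rintro rfl; exact hvW W.zero_mem
    have hinf : W ⊓ Submodule.span F {v} = ⊥ := by
      rw [eq_bot_iff]
      rintro x ⟨hxW, hxv⟩
      obtain ⟨c, rfl⟩ := Submodule.mem_span_singleton.mp hxv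
      by_cases hc : c = 0
      · rw [hc, zero_smul]; exact Submodule.zero_mem _
      · exfalso; apply hvW
        have : v = c⁻¹ • (c • v) := by rw [smul_smul, inv_mul_cancel₀ hc, one_smul]
        rw [this]; exact W.smul_mem _ hxW
    have h := Submodule.finrank_sup_add_finrank_inf_eq W (Submodule.span F {v})
    rw [hinf, finrank_bot, hW, finrank_span_singleton hv0] at h
    omega

theorem chain_exists {F V : Type*} [Field F] [AddCommGroup V] [Module F V] {s : ℕ}
    (C : Submodule F V) (U : Fin s → Submodule F V)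
    (hind : iSupIndep (fun o : Option (Fin s) => o.elim C U)) :
    ∃ Up : ℕ → Submodule F V, Up 0 = ⊥ ∧
      (∀ k (hk : k < s), Up (k + 1) = Up k ⊔ U ⟨k, hk⟩) ∧ Up s = ⨆ j, U j ∧
      (∀ k, Up k ≤ ⨆ j, U j) ∧ (∀ k (hk : k < s), Up k ⊓ U ⟨k, hk⟩ = ⊥) ∧
      C ⊓ (⨆ j, U j) = ⊥ := by
  refine ⟨fun k => ⨆ (j : Fin s) (_ : j.1 < k), U j, ?_, ?_, ?_, ?_, ?_, ?_⟩
  · simp
  · intro k hk
    apply le_antisymm
    · refine iSup₂_le fun j hj => ?_
      by_cases h : j.1 < k
      · exact le_sup_of_le_left (le_iSup₂ (f := fun (j : Fin s) (_ : j.1 < k) => U j) j h)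
      · have : j = ⟨k, hk⟩ := Fin.ext (by show j.1 = k; omega)
        rw [this]; exact le_sup_right
    · refine sup_le (iSup₂_le fun j hj =>
        le_iSup₂ (f := fun (j : Fin s) (_ : j.1 < k + 1) => U j) j (by omega)) ?_
      exact le_iSup₂ (f := fun (j : Fin s) (_ : j.1 < k + 1) => U j) ⟨k, hk⟩ (Nat.lt_succ_self k)
  · exact le_antisymm (iSup₂_le fun j _ => le_iSup U j)
      (iSup_le fun j => le_iSup₂ (f := fun (j : Fin s) (_ : j.1 < s) => U j) j j.2)
  · intro k
    exact iSup₂_le fun j _ => le_iSup U j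
  · intro k hk
    have h1 := hind (some ⟨k, hk⟩)
    have h2 : (⨆ (j : Fin s) (_ : j.1 < k), U j) ≤
        ⨆ (o : Option (Fin s)) (_ : o ≠ some ⟨k, hk⟩), o.elim C U := by
      refine iSup₂_le fun j hj => ?_
      exact le_iSup₂ (f := fun (o : Option (Fin s)) (_ : o ≠ some ⟨k, hk⟩) => o.elim C U)
        (some j) (by
          intro h
          have := Option.some.inj h
          rw [this] at hj
          exact lt_irrefl _ hj)
    exact (h1.mono_right h2).symm.eq_bot
  · have h1 := hind none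
    have h2 : (⨆ j, U j) ≤ ⨆ (o : Option (Fin s)) (_ : o ≠ none), o.elim C U :=
      iSup_le fun j => le_iSup₂ (f := fun (o : Option (Fin s)) (_ : o ≠ none) => o.elim C U)
        (some j) (Option.some_ne_none j)
    exact (h1.mono_right h2).eq_bot

theorem semisimple_inv_dim {F V : Type*} [Field F] [AddCommGroup V] [Module F V]
    [FiniteDimensional F V] (f : V →ₗ[F] V)
    {s a : ℕ} (U : Fin s → Submodule F V)
    (hUinv : ∀ j, (U j).map f ≤ U j) (hUdim : ∀ j, Module.finrank F ↥(U j) = a)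
    (hUirr : ∀ j, ∀ W : Submodule F V, W ≤ U j → W.map f ≤ W → W = ⊥ ∨ W = U j)
    (hdec : DirectSum.IsInternal (fun o : Option (Fin s) => o.elim (Module.End.eigenspace f 1) U))
    (m : ℕ) (hmV : m < Module.finrank F V) :
    (∃ W : Submodule F V, Module.finrank F ↥W = m ∧ W.map f ≤ W) ↔
    (m ≤ Module.finrank F ↥(Module.End.eigenspace f 1) ∨
      (a ≤ m ∧ m % a ≤ Module.finrank F ↥(Module.End.eigenspace f 1))) := by
  have hind := hdec.submodule_iSupIndep
  have htop := hdec.submodule_iSup_eq_top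
  generalize hCdef : Module.End.eigenspace f 1 = C at hind htop
  have hCmem : ∀ v : V, v ∈ C ↔ f v = v := by
    intro v
    rw [← hCdef, Module.End.mem_eigenspace_iff, one_smul]
  obtain ⟨Up, hUp0, hUp1, hUps, hUple, hI1, hI2⟩ := chain_exists C U hind
  have hT : C ⊔ ⨆ j, U j = ⊤ := by
    rw [eq_top_iff, ← htop]
    refine iSup_le fun o => ?_
    cases o with
    | none => exact le_sup_left
    | some j => exact le_sup_of_le_right (le_iSup U j)
  have inv_sup : ∀ A B : Submodule F V, A.map f ≤ A → B.map f ≤ B → (A ⊔ B).map f ≤ A ⊔ B := by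
    intro A B hA hB
    rw [Submodule.map_sup]
    exact sup_le_sup hA hB
  have inv_inf : ∀ A B : Submodule F V, A.map f ≤ A → B.map f ≤ B → (A ⊓ B).map f ≤ A ⊓ B := by
    intro A B hA hB
    exact le_inf ((Submodule.map_mono inf_le_left).trans hA)
      ((Submodule.map_mono inf_le_right).trans hB)
  have hUpinv : ∀ k, k ≤ s → (Up k).map f ≤ Up k := by
    intro k
    induction k with
    | zero => intro _; rw [hUp0, Submodule.map_bot]
    | succ k ih =>
      intro hk
      rw [hUp1 k hk]
      exact inv_sup _ _ (ih (by omega)) (hUinv _)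
  have hUpmono : ∀ k, k < s → Up k ≤ Up (k + 1) := by
    intro k hk
    rw [hUp1 k hk]; exact le_sup_left
  have hD1 : ∀ k, k ≤ s → finrank F ↥(Up k) = a * k := by
    intro k
    induction k with
    | zero => intro _; rw [hUp0, finrank_bot, mul_zero]
    | succ k ih =>
      intro hk
      have h := Submodule.finrank_sup_add_finrank_inf_eq (Up k) (U ⟨k, hk⟩)
      rw [← hUp1 k hk, hI1 k hk, finrank_bot, ih (by omega), hUdim] at h
      rw [mul_add, mul_one]; omega
  have hD2 : finrank F V = finrank F ↥C + a * s := by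
    have h := Submodule.finrank_sup_add_finrank_inf_eq C (⨆ j, U j)
    rw [hT, hI2, finrank_bot, ← hUps, hD1 s le_rfl, finrank_top] at h
    omega
  have hCsub : ∀ W : Submodule F V, W ≤ C → W.map f ≤ W := by
    rintro W hWC _ ⟨w, hw, rfl⟩
    rw [(hCmem w).mp (hWC hw)]
    exact hw
  have hUsupinv : (⨆ j, U j).map f ≤ ⨆ j, U j := by
    rw [← hUps]; exact hUpinv s le_rfl
  constructor
  · rintro ⟨W, hWm, hWinv⟩
    have hsub : ∀ v : V, (f - 1) v = f v - v := fun v => rfl
    have hXW : W.map (f - 1) ≤ W := by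
      rintro _ ⟨w, hw, rfl⟩
      rw [hsub]
      exact W.sub_mem (hWinv (Submodule.mem_map_of_mem hw)) hw
    have hXinv : (W.map (f - 1)).map f ≤ W.map (f - 1) := by
      rintro _ ⟨_, ⟨w, hw, rfl⟩, rfl⟩
      refine ⟨f w, hWinv (Submodule.mem_map_of_mem hw), ?_⟩
      rw [hsub, hsub, map_sub]
    have hXU : W.map (f - 1) ≤ ⨆ j, U j := by
      rintro _ ⟨w, hw, rfl⟩
      have hw' : w ∈ C ⊔ ⨆ j, U j := by rw [hT]; trivial
      obtain ⟨c, hc, u, hu, rfl⟩ := Submodule.mem_sup.mp hw'
      have hc' : f c = c := (hCmem c).mp hc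
      have e : (f - 1) (c + u) = f u - u := by
        rw [hsub, map_add, hc']; abel
      rw [e]
      exact Submodule.sub_mem _ (hUsupinv (Submodule.mem_map_of_mem hu)) hu
    have hrk : finrank F ↥(W.map (f - 1)) + finrank F ↥(W ⊓ C) = m := by
      have h1 := LinearMap.finrank_range_add_finrank_ker ((f - 1).comp W.subtype)
      have h2 : LinearMap.range ((f - 1).comp W.subtype) = W.map (f - 1) := by
        rw [LinearMap.range_comp, Submodule.range_subtype]
      have h3 : Submodule.map W.subtype (LinearMap.ker ((f - 1).comp W.subtype)) = W ⊓ C := by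
        ext v
        constructor
        · rintro ⟨w, hw, rfl⟩
          have hw' : (f - 1) (w : V) = 0 := hw
          rw [hsub] at hw'
          exact ⟨w.2, (hCmem (w : V)).mpr (sub_eq_zero.mp hw')⟩
        · rintro ⟨hvW, hvC⟩
          refine ⟨⟨v, hvW⟩, ?_, rfl⟩
          show (f - 1) v = 0
          rw [hsub]
          exact sub_eq_zero.mpr ((hCmem v).mp hvC)
      rw [h2, ← Submodule.finrank_map_subtype_eq W, h3, hWm] at h1
      exact h1
    have hchain : ∀ k, k ≤ s → a ∣ finrank F ↥(W.map (f - 1) ⊓ Up k) := by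
      intro k
      induction k with
      | zero => intro _; rw [hUp0, inf_bot_eq, finrank_bot]; exact dvd_zero a
      | succ k ih =>
        intro hk
        have hk' : k < s := hk
        have ihk := ih (by omega)
        have hstep := hUp1 k hk'
        have ha : (W.map (f - 1) ⊓ Up (k + 1)) ⊓ Up k = W.map (f - 1) ⊓ Up k := by
          rw [inf_assoc, inf_eq_right.mpr (hUpmono k hk')]
        have hb := Submodule.finrank_sup_add_finrank_inf_eq (W.map (f - 1) ⊓ Up (k + 1)) (Up k)
        rw [ha] at hb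
        have hZle : (W.map (f - 1) ⊓ Up (k + 1)) ⊔ Up k ≤ Up k ⊔ U ⟨k, hk'⟩ := by
          rw [← hstep]; exact sup_le inf_le_right (hUpmono k hk')
        have hc : Up k ⊔ U ⟨k, hk'⟩ ⊓ ((W.map (f - 1) ⊓ Up (k + 1)) ⊔ Up k) =
            (W.map (f - 1) ⊓ Up (k + 1)) ⊔ Up k := by
          rw [← sup_inf_assoc_of_le (U ⟨k, hk'⟩)
            (le_sup_right : Up k ≤ (W.map (f - 1) ⊓ Up (k + 1)) ⊔ Up k)]
          exact inf_eq_right.mpr hZle
        have hd : Up k ⊓ (U ⟨k, hk'⟩ ⊓ ((W.map (f - 1) ⊓ Up (k + 1)) ⊔ Up k)) = ⊥ := by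
          rw [eq_bot_iff, ← hI1 k hk']
          exact inf_le_inf_left _ inf_le_left
        have he := Submodule.finrank_sup_add_finrank_inf_eq (Up k)
          (U ⟨k, hk'⟩ ⊓ ((W.map (f - 1) ⊓ Up (k + 1)) ⊔ Up k))
        rw [hc, hd, finrank_bot] at he
        have hZinv : (((W.map (f - 1) ⊓ Up (k + 1)) ⊔ Up k)).map f ≤
            (W.map (f - 1) ⊓ Up (k + 1)) ⊔ Up k :=
          inv_sup _ _ (inv_inf _ _ hXinv (hUpinv (k + 1) hk)) (hUpinv k (by omega))
        have hf : a ∣ finrank F ↥(U ⟨k, hk'⟩ ⊓ ((W.map (f - 1) ⊓ Up (k + 1)) ⊔ Up k)) := by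
          rcases hUirr ⟨k, hk'⟩ _ inf_le_left (inv_inf _ _ (hUinv _) hZinv) with h | h
          · rw [h, finrank_bot]; exact dvd_zero a
          · rw [h, hUdim]
        have hkey : finrank F ↥(W.map (f - 1) ⊓ Up (k + 1)) =
            finrank F ↥(W.map (f - 1) ⊓ Up k) +
              finrank F ↥(U ⟨k, hk'⟩ ⊓ ((W.map (f - 1) ⊓ Up (k + 1)) ⊔ Up k)) := by
          omega
        rw [hkey]
        exact dvd_add ihk hf
    have hdiv : a ∣ finrank F ↥(W.map (f - 1)) := by
      have h := hchain s le_rfl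
      rw [hUps, inf_eq_left.mpr hXU] at h
      exact h
    have hcle : finrank F ↥(W ⊓ C) ≤ finrank F ↥C := Submodule.finrank_mono inf_le_right
    by_cases hX0 : finrank F ↥(W.map (f - 1)) = 0
    · left; omega
    · right
      have hale : a ≤ finrank F ↥(W.map (f - 1)) := Nat.le_of_dvd (Nat.pos_of_ne_zero hX0) hdiv
      refine ⟨by omega, ?_⟩
      rw [← hrk, Nat.add_mod, Nat.mod_eq_zero_of_dvd hdiv, zero_add, Nat.mod_mod]
      exact le_trans (Nat.mod_le _ _) hcle
  · rintro (h | ⟨ham, hmod⟩)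
    · obtain ⟨W, hWC, hW⟩ := exists_le_finrank_eq C m h
      exact ⟨W, hW, hCsub W hWC⟩
    · have hts : min (m / a) s ≤ s := min_le_right _ _
      have hta : a * min (m / a) s ≤ m :=
        le_trans (Nat.mul_le_mul_left a (min_le_left _ _)) (Nat.mul_div_le m a)
      have hc' : m - a * min (m / a) s ≤ finrank F ↥C := by
        rcases le_total (m / a) s with h | h
        · rw [min_eq_left h]
          have := Nat.div_add_mod m a
          omega
        · rw [min_eq_right h]
          omega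
      obtain ⟨C', hC'C, hC'⟩ := exists_le_finrank_eq C (m - a * min (m / a) s) hc'
      refine ⟨Up (min (m / a) s) ⊔ C', ?_, inv_sup _ _ (hUpinv _ hts) (hCsub C' hC'C)⟩
      have hinf : Up (min (m / a) s) ⊓ C' = ⊥ := by
        rw [eq_bot_iff, ← hI2]
        exact le_inf (inf_le_right.trans hC'C) (inf_le_left.trans (hUple _))
      have h := Submodule.finrank_sup_add_finrank_inf_eq (Up (min (m / a) s)) C'
      rw [hinf, finrank_bot, hD1 _ hts, hC'] at h
      omega

end Cfsg.Agent.Lib.Helper1
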