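import Mathlib
import Cfsg.Prelude.Def_TwoFusion
import Cfsg.Agent.Lib.Helper2.Alperin
import Cfsg.Agent.Lib.Helper5.AS
import Cfsg.Agent.Lib.Helper6.FixedPts
import Cfsg.Agent.Lib.Helper7.Coprime
import Cfsg.Agent.Lib.Helper8.Basic

set_option autoImplicit false

namespace Cfsg.Agent.Lib.Helper1

/-- The stabilizer of the chain `1 ≤ Z ≤ T`. -/
def chainStab {X : Type*} [Group X] (Z T : Subgroup X) [hT : T.Normal] : Subgroup X where
  carrier := {m | (∀ z ∈ Z, m * z = z * m) ∧ ∀ d ∈ T, m * d * m⁻¹ * d⁻¹ ∈ Z}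
  one_mem' := by
    refine ⟨fun z _ => by rw [one_mul, mul_one], fun d _ => ?_⟩
    have : (1 : X) * d * 1⁻¹ * d⁻¹ = 1 := by group
    rw [this]; exact Z.one_mem
  mul_mem' := by
    rintro a b ⟨ha1, ha2⟩ ⟨hb1, hb2⟩
    refine ⟨fun z hz => ?_, fun d hd => ?_⟩
    · rw [mul_assoc, hb1 z hz, ← mul_assoc, ha1 z hz, mul_assoc]
    · have h1 : a * b * d * (a * b)⁻¹ * d⁻¹ =
          (a * (b * d * b⁻¹ * d⁻¹) * a⁻¹) * (a * d * a⁻¹ * d⁻¹) := by group
      have h2 : a * (b * d * b⁻¹ * d⁻¹) * a⁻¹ = b * d * b⁻¹ * d⁻¹ := by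
        rw [ha1 _ (hb2 d hd)]; group
      rw [h1, h2]
      exact Z.mul_mem (hb2 d hd) (ha2 d hd)
  inv_mem' := by
    rintro a ⟨ha1, ha2⟩
    refine ⟨fun z hz => ?_, fun d hd => ?_⟩
    · have := ha1 z hz
      calc a⁻¹ * z = a⁻¹ * (z * a) * a⁻¹ := by group
        _ = a⁻¹ * (a * z) * a⁻¹ := by rw [this]
        _ = z * a⁻¹ := by group
    · have hd' : a⁻¹ * d * a⁻¹⁻¹ ∈ T := hT.conj_mem d hd a⁻¹
      have h1 := ha2 _ hd'
      have h2 : a⁻¹ * d * a⁻¹⁻¹ * d⁻¹ =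
          (a * (a⁻¹ * d * a⁻¹⁻¹) * a⁻¹ * (a⁻¹ * d * a⁻¹⁻¹)⁻¹)⁻¹ := by group
      rw [h2]
      exact Z.inv_mem h1

theorem mem_chainStab {X : Type*} [Group X] (Z T : Subgroup X) [hT : T.Normal] (m : X) :
    m ∈ chainStab Z T ↔ (∀ z ∈ Z, m * z = z * m) ∧ ∀ d ∈ T, m * d * m⁻¹ * d⁻¹ ∈ Z := Iff.rfl

theorem chainStab_normal {X : Type*} [Group X] (Z T : Subgroup X) [hT : T.Normal]
    (hZ : ∀ x : X, ∀ z ∈ Z, x * z * x⁻¹ ∈ Z) : (chainStab Z T).Normal := by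
  refine ⟨fun m hm n => ?_⟩
  rw [mem_chainStab] at hm ⊢
  obtain ⟨hm1, hm2⟩ := hm
  refine ⟨fun z hz => ?_, fun d hd => ?_⟩
  · have hz1 : n⁻¹ * z * n⁻¹⁻¹ ∈ Z := hZ n⁻¹ z hz
    have h := hm1 _ hz1
    calc n * m * n⁻¹ * z = n * (m * (n⁻¹ * z * n⁻¹⁻¹)) * n⁻¹ := by group
      _ = n * ((n⁻¹ * z * n⁻¹⁻¹) * m) * n⁻¹ := by rw [h]
      _ = z * (n * m * n⁻¹) := by group
  · have hd1 : n⁻¹ * d * n⁻¹⁻¹ ∈ T := hT.conj_mem d hd n⁻¹
    have h := hZ n _ (hm2 _ hd1)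
    have e : n * m * n⁻¹ * d * (n * m * n⁻¹)⁻¹ * d⁻¹ =
        n * (m * (n⁻¹ * d * n⁻¹⁻¹) * m⁻¹ * (n⁻¹ * d * n⁻¹⁻¹)⁻¹) * n⁻¹ := by group
    rw [e]; exact h

theorem centralizer_le_chainStab {X : Type*} [Group X] (Z T : Subgroup X) [hT : T.Normal]
    (hZT : Z ≤ T) : Subgroup.centralizer (T : Set X) ≤ chainStab Z T := by
  intro c hc
  rw [Subgroup.mem_centralizer_iff] at hc
  rw [mem_chainStab]
  refine ⟨fun z hz => (hc z (hZT hz)).symm, fun d hd => ?_⟩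
  have : c * d * c⁻¹ * d⁻¹ = 1 := by
    rw [← hc d hd]; group
  rw [this]; exact Z.one_mem

theorem sc_conj_pow_of_comm {X : Type*} [Group X] (s d z : X) (h1 : s * d * s⁻¹ * d⁻¹ = z)
    (h2 : s * z = z * s) (j : ℕ) : s ^ j * d * (s ^ j)⁻¹ = z ^ j * d := by
  induction j with
  | zero => simp
  | succ j ih =>
    have hc : s * z ^ j = z ^ j * s := ((Commute.pow_right (show Commute s z from h2) j)).eq
    have h3 : s * d * s⁻¹ = z * d := by rw [← h1]; group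
    calc s ^ (j + 1) * d * (s ^ (j + 1))⁻¹ = s * (s ^ j * d * (s ^ j)⁻¹) * s⁻¹ := by
          rw [pow_succ']; group
      _ = s * (z ^ j * d) * s⁻¹ := by rw [ih]
      _ = (s * z ^ j) * s⁻¹ * (s * d * s⁻¹) := by group
      _ = z ^ j * s * s⁻¹ * (z * d) := by rw [hc, h3]
      _ = z ^ (j + 1) * d := by rw [pow_succ]; group

theorem chainStab_pow_mem_centralizer {X : Type*} [Group X] [Finite X] {p : ℕ} [hp : Fact p.Prime]
    (Z T : Subgroup X) [hT : T.Normal] (hTp : IsPGroup p T) (hZT : Z ≤ T) (s : X)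
    (hs : s ∈ chainStab Z T) : ∃ k : ℕ, s ^ p ^ k ∈ Subgroup.centralizer (T : Set X) := by
  have hn : orderOf s ≠ 0 := (orderOf_pos s).ne'
  obtain ⟨a, b, hb, hab⟩ := Nat.exists_eq_pow_mul_and_not_dvd hn p hp.out.ne_one
  refine ⟨a, ?_⟩
  have hs' : s ^ p ^ a ∈ chainStab Z T := Subgroup.pow_mem _ hs _
  have hsb : (s ^ p ^ a) ^ b = 1 := by rw [← pow_mul, ← hab]; exact pow_orderOf_eq_one s
  rw [mem_chainStab] at hs'
  rw [Subgroup.mem_centralizer_iff]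
  intro d hd
  have hz := hs'.2 d hd
  have hzs := hs'.1 _ hz
  have h1 := sc_conj_pow_of_comm (s ^ p ^ a) d _ rfl hzs b
  rw [hsb] at h1
  have hzb : (s ^ p ^ a * d * (s ^ p ^ a)⁻¹ * d⁻¹) ^ b = 1 := by
    have : (1 : X) * d * 1⁻¹ = d := by group
    rw [this] at h1
    exact (mul_eq_right.mp h1.symm)
  obtain ⟨e, he⟩ := hTp ⟨_, hZT hz⟩
  have hze : (s ^ p ^ a * d * (s ^ p ^ a)⁻¹ * d⁻¹) ^ p ^ e = 1 := by
    have := congrArg Subtype.val he
    simpa using this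
  have hcop : Nat.gcd b (p ^ e) = 1 :=
    Nat.Coprime.pow_right e (Nat.Coprime.symm ((Nat.Prime.coprime_iff_not_dvd hp.out).mpr hb))
  have h3 := pow_gcd_eq_one.mpr ⟨hzb, hze⟩
  rw [hcop, pow_one] at h3
  calc d * s ^ p ^ a = (s ^ p ^ a * d * (s ^ p ^ a)⁻¹ * d⁻¹)⁻¹ * (s ^ p ^ a * d) := by group
    _ = s ^ p ^ a * d := by rw [h3]; group

/-- Factorization of the normalizer: `X = C_X(T) N_X(R ∩ Stab)`. -/
theorem sc_factor {X : Type*} [Group X] [Finite X] {p : ℕ} [hp : Fact p.Prime] (R : Sylow p X)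
    (T Z : Subgroup X) [hT : T.Normal] (hTp : IsPGroup p T)
    (hZ : ∀ x : X, ∀ z ∈ Z, x * z * x⁻¹ ∈ Z) (hZT : Z ≤ T) (x : X) :
    ∃ c ∈ Subgroup.centralizer (T : Set X), ∃ y ∈ Subgroup.normalizer
      ((((R : Subgroup X) ⊓ chainStab Z T : Subgroup X)) : Set X), x = c * y := by
  classical
  haveI hSn : (chainStab Z T).Normal := chainStab_normal Z T hZ
  have hCS := centralizer_le_chainStab Z T hZT
  have hfr := Cfsg.Agent.Lib.Helper5.frattini_inf_normal (chainStab Z T) R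
  have hidx := Cfsg.Agent.Lib.Helper5.sylow_inf_normal_relIndex (chainStab Z T) R
  -- Stab ≤ C ⊔ (R ⊓ Stab)
  have hle : chainStab Z T ≤ Subgroup.centralizer (T : Set X) ⊔ ((R : Subgroup X) ⊓ chainStab Z T) := by
    rw [← Subgroup.relIndex_eq_one]
    have h1 : (Subgroup.centralizer (T : Set X) ⊔ ((R : Subgroup X) ⊓ chainStab Z T)).relIndex
        (chainStab Z T) ∣ ((R : Subgroup X) ⊓ chainStab Z T).relIndex (chainStab Z T) :=
      Subgroup.relIndex_dvd_of_le_left _ le_sup_right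
    have h2 : (Subgroup.centralizer (T : Set X) ⊔ ((R : Subgroup X) ⊓ chainStab Z T)).relIndex
        (chainStab Z T) ∣ (Subgroup.centralizer (T : Set X)).relIndex (chainStab Z T) :=
      Subgroup.relIndex_dvd_of_le_left _ le_sup_left
    have h3 : ∃ n : ℕ, (Subgroup.centralizer (T : Set X)).relIndex (chainStab Z T) = p ^ n := by
      haveI : ((Subgroup.centralizer (T : Set X)).subgroupOf (chainStab Z T)).Normal :=
        Subgroup.Normal.subgroupOf inferInstance _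
      have hq : IsPGroup p (↥(chainStab Z T) ⧸
          (Subgroup.centralizer (T : Set X)).subgroupOf (chainStab Z T)) := by
        intro g
        obtain ⟨s, rfl⟩ := QuotientGroup.mk_surjective g
        obtain ⟨k, hk⟩ := chainStab_pow_mem_centralizer Z T hTp hZT (s : X) s.2
        refine ⟨k, ?_⟩
        rw [← QuotientGroup.mk_pow, QuotientGroup.eq_one_iff, Subgroup.mem_subgroupOf]
        exact hk
      obtain ⟨n, hn⟩ := IsPGroup.iff_card.mp hq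
      exact ⟨n, by rw [Subgroup.relIndex, Subgroup.index_eq_card]; exact hn⟩
    obtain ⟨n, hn⟩ := h3
    rw [hn] at h2
    obtain ⟨j, -, hj⟩ := (Nat.dvd_prime_pow hp.out).mp h2
    rw [hj] at h1 ⊢
    rcases Nat.eq_zero_or_pos j with h0 | hpos
    · rw [h0, pow_zero]
    · exfalso
      exact hidx ((dvd_pow_self p hpos.ne').trans h1)
  have hx : x ∈ chainStab Z T ⊔ Subgroup.normalizer
      ((((R : Subgroup X) ⊓ chainStab Z T : Subgroup X)) : Set X) := by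
    rw [sup_comm, hfr]; exact Subgroup.mem_top x
  have hx' : x ∈ ((chainStab Z T ⊔ Subgroup.normalizer
      ((((R : Subgroup X) ⊓ chainStab Z T : Subgroup X)) : Set X) : Subgroup X) : Set X) := hx
  rw [Subgroup.normal_mul] at hx'
  obtain ⟨s, hs, n, hn, rfl⟩ := Set.mem_mul.mp hx'
  have hs2 : s ∈ ((Subgroup.centralizer (T : Set X) ⊔ ((R : Subgroup X) ⊓ chainStab Z T) :
      Subgroup X) : Set X) := hle hs
  rw [Subgroup.normal_mul] at hs2
  obtain ⟨c, hc, r, hr, rfl⟩ := Set.mem_mul.mp hs2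
  refine ⟨c, hc, r * n, Subgroup.mul_mem _ (Subgroup.le_normalizer hr) hn, by rw [mul_assoc]⟩

/-- The key step: if `W ≰ T` for a tame `T`, every `x ∈ N_G(T)` is `c * y` with `c ∈ C_G(T)` and
`y` normalizing `T` and a `p`-subgroup `D₁ ≤ P` not contained in `T`. -/
theorem sc_core {G : Type*} [Group G] [Finite G] {p : ℕ} [hp : Fact p.Prime] (P : Sylow p G)
    (W : Subgroup G) (hWc : ∀ a ∈ W, ∀ b ∈ W, a * b = b * a)
    (hsc : Cfsg.IsStronglyClosed W (P : Subgroup G)) (T N : Subgroup G)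
    (hN : N = Subgroup.normalizer (T : Set G)) (hTP : T ≤ (P : Subgroup G))
    (hidx : ¬ p ∣ ((P : Subgroup G) ⊓ N).relIndex N) (hWT : ¬ W ≤ T) (x : G) (hx : x ∈ N) :
    ∃ D₁ : Subgroup G, D₁ ≤ (P : Subgroup G) ∧ (∃ w ∈ D₁, w ∉ T) ∧
      ∃ c ∈ Subgroup.centralizer (T : Set G), ∃ y ∈ Subgroup.normalizer (D₁ : Set G),
        y ∈ Subgroup.normalizer (T : Set G) ∧ x = c * y := by
  classical
  have hTN : T ≤ N := by rw [hN]; exact Subgroup.le_normalizer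
  have hnorm : ∀ n ∈ N, ∀ t ∈ T, n * t * n⁻¹ ∈ T := by
    intro n hn t ht
    rw [hN] at hn
    exact Cfsg.Agent.Lib.Helper7.conj_mem_of_mem_normalizer hn ht
  -- `W` is normalized by `P`
  have hWn : ∀ g ∈ (P : Subgroup G), ∀ w ∈ W, g * w * g⁻¹ ∈ W := by
    intro g hg w hw
    exact hsc.2 w hw g (Subgroup.mul_mem _ (Subgroup.mul_mem _ hg (hsc.1 hw)) (Subgroup.inv_mem _ hg))
  -- an element of `W ∩ N` outside `T`
  obtain ⟨w, hwW, hwN, hwT⟩ : ∃ w ∈ W, w ∈ N ∧ w ∉ T := by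
    have hp1 : IsPGroup p ↥(W ⊔ T) := P.isPGroup'.to_le (sup_le hsc.1 hTP)
    have hne : T ≠ W ⊔ T := by
      intro h
      apply hWT
      rw [h]; exact le_sup_left
    obtain ⟨u, hu, huN, huT⟩ := Cfsg.Agent.Lib.Helper8.h8_normalizer_growth hp1 le_sup_right hne
    have hTW : T ≤ Subgroup.normalizer (W : Set G) := by
      intro t ht
      exact Cfsg.Agent.Lib.Helper6.sy_mem_normalizer_of_conj_le W t
        (fun h hh => hWn t (hTP ht) h hh)
    obtain ⟨w, hw, t, ht, rfl⟩ := Cfsg.Agent.Lib.Helper7.exists_mul_of_mem_sup hTW hu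
    refine ⟨w, hw, ?_, ?_⟩
    · have h1 : w = (w * t) * t⁻¹ := by group
      rw [h1, hN]
      exact Subgroup.mul_mem _ huN (Subgroup.inv_mem _ (Subgroup.le_normalizer ht))
    · intro hwT
      exact huT (T.mul_mem hwT ht)
  -- work inside `N`
  haveI hT'n : (T.subgroupOf N).Normal := by
    refine ⟨fun t ht n => ?_⟩
    rw [Subgroup.mem_subgroupOf] at ht ⊢
    exact hnorm n n.2 t ht
  have hP' : IsPGroup p ↥(((P : Subgroup G) ⊓ N).subgroupOf N) :=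
    (P.isPGroup'.to_le inf_le_left).comap_subtype
  have hT'p : IsPGroup p ↥(T.subgroupOf N) := (P.isPGroup'.to_le hTP).comap_subtype
  have hZ' : ∀ n : ↥N, ∀ z ∈ (T ⊓ W).subgroupOf N, n * z * n⁻¹ ∈ (T ⊓ W).subgroupOf N := by
    intro n z hz
    rw [Subgroup.mem_subgroupOf] at hz ⊢
    have h1 : (n : G) * z * (n : G)⁻¹ ∈ T := hnorm n n.2 z hz.1
    exact ⟨h1, hsc.2 z hz.2 n (hTP h1)⟩
  have hZT' : (T ⊓ W).subgroupOf N ≤ T.subgroupOf N := by
    intro z hz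
    rw [Subgroup.mem_subgroupOf] at hz ⊢
    exact hz.1
  obtain ⟨c', hc', y', hy', hxy⟩ := sc_factor (hP'.toSylow hidx) (T.subgroupOf N)
    ((T ⊓ W).subgroupOf N) hT'p hZ' hZT' ⟨x, hx⟩
  have hcoe : ((hP'.toSylow hidx : Sylow p ↥N) : Subgroup ↥N) =
      ((P : Subgroup G) ⊓ N).subgroupOf N := rfl
  rw [hcoe] at hy'
  refine ⟨((((P : Subgroup G) ⊓ N).subgroupOf N) ⊓
    chainStab ((T ⊓ W).subgroupOf N) (T.subgroupOf N)).map N.subtype, ?_, ?_, (c' : G), ?_,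
    (y' : G), ?_, ?_, ?_⟩
  · rintro _ ⟨g, hg, rfl⟩
    exact (Subgroup.mem_subgroupOf.mp hg.1).1
  · have hw1 : (⟨w, hwN⟩ : ↥N) ∈ ((P : Subgroup G) ⊓ N).subgroupOf N := by
      rw [Subgroup.mem_subgroupOf]
      exact ⟨hsc.1 hwW, hwN⟩
    have hw2 : (⟨w, hwN⟩ : ↥N) ∈ chainStab ((T ⊓ W).subgroupOf N) (T.subgroupOf N) := by
      rw [mem_chainStab]
      refine ⟨fun z hz => ?_, fun d hd => ?_⟩
      · rw [Subgroup.mem_subgroupOf] at hz
        exact Subtype.ext (hWc w hwW z hz.2)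
      · rw [Subgroup.mem_subgroupOf] at hd ⊢
        have h1 : w * (d : G) * w⁻¹ * (d : G)⁻¹ ∈ T :=
          T.mul_mem (hnorm w hwN d hd) (T.inv_mem hd)
        have h2 : w * (d : G) * w⁻¹ * (d : G)⁻¹ ∈ W := by
          have h3 : w * (d : G) * w⁻¹ * (d : G)⁻¹ = w * ((d : G) * w⁻¹ * (d : G)⁻¹) := by group
          rw [h3]
          exact W.mul_mem hwW (hWn d (hTP hd) _ (W.inv_mem hwW))
        exact ⟨h1, h2⟩
    exact ⟨w, ⟨⟨w, hwN⟩, Subgroup.mem_inf.mpr ⟨hw1, hw2⟩, rfl⟩, hwT⟩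
  · rw [Subgroup.mem_centralizer_iff] at hc' ⊢
    intro t ht
    have := hc' ⟨t, hTN ht⟩ (Subgroup.mem_subgroupOf.mpr ht)
    exact congrArg Subtype.val this
  · apply Cfsg.Agent.Lib.Helper6.sy_mem_normalizer_of_conj_le
    rintro _ ⟨g, hg, rfl⟩
    exact ⟨y' * g * y'⁻¹, Cfsg.Agent.Lib.Helper7.conj_mem_of_mem_normalizer hy' hg, rfl⟩
  · rw [← hN]; exact y'.2
  · exact congrArg Subtype.val hxy

open Cfsg.Agent.Lib.Helper2 in
/-- Transport along a decomposition into steps each of which is induced by `N_G(W)`. -/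
theorem dec_control {G : Type*} [Group G] [Finite G] (W : Subgroup G)
    (St : Subgroup G → G → Prop) (m : ℕ)
    (hstep : ∀ T x, St T x → m ≤ Nat.card T →
      ∃ y ∈ Subgroup.normalizer (W : Set G), ∀ t ∈ T, x⁻¹ * t * x = y⁻¹ * t * y)
    (B : Set G) (g : G) (h : Dec St B g) :
    m ≤ B.ncard → ∃ y ∈ Subgroup.normalizer (W : Set G), ∀ b ∈ B, g⁻¹ * b * g = y⁻¹ * b * y := by
  induction h with
  | nil A => intro _; exact ⟨1, Subgroup.one_mem _, fun b _ => rfl⟩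
  | cons A T x g hSt hA _ ih =>
    intro hm
    have hT : m ≤ Nat.card T := by
      have h1 : A.ncard ≤ (T : Set G).ncard := Set.ncard_le_ncard hA (Set.toFinite _)
      have h2 : Nat.card T = (T : Set G).ncard := Nat.card_coe_set_eq (T : Set G)
      omega
    obtain ⟨y₁, hy₁, h1⟩ := hstep T x hSt hT
    have hcj : (cj A x).ncard = A.ncard := by
      unfold cj
      apply Set.ncard_image_of_injective
      intro a b hab
      have hab' : x⁻¹ * a * x = x⁻¹ * b * x := hab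
      have e : ∀ c : G, c = x * (x⁻¹ * c * x) * x⁻¹ := fun c => by group
      rw [e a, hab', ← e b]
    obtain ⟨y₂, hy₂, h2⟩ := ih (by rw [hcj]; exact hm)
    refine ⟨y₁ * y₂, Subgroup.mul_mem _ hy₁ hy₂, fun b hb => ?_⟩
    have h3 := h2 (x⁻¹ * b * x) ⟨b, hb, rfl⟩
    calc (x * g)⁻¹ * b * (x * g) = g⁻¹ * (x⁻¹ * b * x) * g := by group
      _ = y₂⁻¹ * (x⁻¹ * b * x) * y₂ := h3
      _ = y₂⁻¹ * (y₁⁻¹ * b * y₁) * y₂ := by rw [h1 b (hA hb)]
      _ = (y₁ * y₂)⁻¹ * b * (y₁ * y₂) := by group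

open Cfsg.Agent.Lib.Helper2 in
theorem sc_psi_step {G : Type*} [Group G] [Finite G] {p : ℕ} [hp : Fact p.Prime] (P : Sylow p G)
    (W : Subgroup G) (hWc : ∀ a ∈ W, ∀ b ∈ W, a * b = b * a)
    (hsc : Cfsg.IsStronglyClosed W (P : Subgroup G)) (T : Subgroup G)
    (hTP : T ≤ (P : Subgroup G))
    (hidx : ¬ p ∣ ((P : Subgroup G) ⊓ Subgroup.normalizer (T : Set G)).relIndex
      (Subgroup.normalizer (T : Set G)))
    (ih : ∀ T₂ : Subgroup G, T₂ ≤ (P : Subgroup G) →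
      ¬ p ∣ ((P : Subgroup G) ⊓ Subgroup.normalizer (T₂ : Set G)).relIndex
        (Subgroup.normalizer (T₂ : Set G)) → Nat.card T < Nat.card T₂ →
      ∀ x ∈ Subgroup.normalizer (T₂ : Set G), ∃ y ∈ Subgroup.normalizer (W : Set G),
        ∀ t ∈ T₂, x⁻¹ * t * x = y⁻¹ * t * y)
    (x : G) (hx : x ∈ Subgroup.normalizer (T : Set G)) :
    ∃ y ∈ Subgroup.normalizer (W : Set G), ∀ t ∈ T, x⁻¹ * t * x = y⁻¹ * t * y := by
  classical
  by_cases hWT : W ≤ T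
  · refine ⟨x, ?_, fun t _ => rfl⟩
    apply Cfsg.Agent.Lib.Helper6.sy_mem_normalizer_of_conj_le
    intro h hh
    exact hsc.2 h hh x (hTP (Cfsg.Agent.Lib.Helper7.conj_mem_of_mem_normalizer hx (hWT hh)))
  · obtain ⟨D₁, hD₁P, ⟨w, hwD, hwT⟩, c, hc, y₀, hy₀D, hy₀T, rfl⟩ :=
      sc_core P W hWc hsc T _ rfl hTP hidx hWT x hx
    have hB : (T : Set G) ∪ (D₁ : Set G) ⊆
        (((P : Subgroup G) ⊓ ((y₀ • P : Sylow p G) : Subgroup G) : Subgroup G) : Set G) := by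
      rintro b (hb | hb)
      · refine Subgroup.mem_inf.mpr ⟨hTP hb, ?_⟩
        rw [mem_sylow_smul_iff]
        exact hTP (Cfsg.Agent.Lib.Helper7.conj_mem_of_mem_normalizer' hy₀T hb)
      · refine Subgroup.mem_inf.mpr ⟨hD₁P hb, ?_⟩
        rw [mem_sylow_smul_iff]
        exact hD₁P (Cfsg.Agent.Lib.Helper7.conj_mem_of_mem_normalizer' hy₀D hb)
    have hdec := (alperin_dec P y₀).mono _ hB
    have hcard : Nat.card T + 1 ≤ ((T : Set G) ∪ (D₁ : Set G)).ncard := by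
      have h1 : insert w (T : Set G) ⊆ (T : Set G) ∪ (D₁ : Set G) := by
        intro b hb
        rcases Set.mem_insert_iff.mp hb with rfl | hb
        · exact Or.inr hwD
        · exact Or.inl hb
      have h2 := Set.ncard_le_ncard h1 (Set.toFinite _)
      have h3 : (insert w (T : Set G)).ncard = (T : Set G).ncard + 1 :=
        Set.ncard_insert_of_notMem hwT (Set.toFinite _)
      have h4 : Nat.card T = (T : Set G).ncard := Nat.card_coe_set_eq (T : Set G)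
      omega
    obtain ⟨y', hy', h⟩ := dec_control W (AlpSt P) (Nat.card T + 1) (by
      rintro T₂ x₂ ⟨Q, rfl, hx₂, h1, -, -⟩ hT₂
      exact ih _ inf_le_left h1 (by omega) x₂ hx₂) _ y₀ hdec hcard
    refine ⟨y', hy', fun t ht => ?_⟩
    rw [Subgroup.mem_centralizer_iff] at hc
    have h1 : c⁻¹ * t * c = t := by
      rw [mul_assoc, hc t ht]; group
    calc (c * y₀)⁻¹ * t * (c * y₀) = y₀⁻¹ * (c⁻¹ * t * c) * y₀ := by group
      _ = y₀⁻¹ * t * y₀ := by rw [h1]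
      _ = y'⁻¹ * t * y' := h t (Or.inl ht)

theorem sc_psi {G : Type*} [Group G] [Finite G] {p : ℕ} [hp : Fact p.Prime] (P : Sylow p G)
    (W : Subgroup G) (hWc : ∀ a ∈ W, ∀ b ∈ W, a * b = b * a)
    (hsc : Cfsg.IsStronglyClosed W (P : Subgroup G)) :
    ∀ (n : ℕ) (T : Subgroup G), Nat.card (P : Subgroup G) - Nat.card T < n →
      T ≤ (P : Subgroup G) →
      ¬ p ∣ ((P : Subgroup G) ⊓ Subgroup.normalizer (T : Set G)).relIndex
        (Subgroup.normalizer (T : Set G)) →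
      ∀ x ∈ Subgroup.normalizer (T : Set G), ∃ y ∈ Subgroup.normalizer (W : Set G),
        ∀ t ∈ T, x⁻¹ * t * x = y⁻¹ * t * y := by
  intro n
  induction n with
  | zero => intro T h; omega
  | succ n ih =>
    intro T hn hTP hidx x hx
    refine sc_psi_step P W hWc hsc T hTP hidx ?_ x hx
    intro T₂ hT₂P hidx₂ hlt
    have hle : Nat.card T₂ ≤ Nat.card (P : Subgroup G) := Subgroup.card_le_of_le hT₂P
    exact ih T₂ (by omega) hT₂P hidx₂

open Cfsg.Agent.Lib.Helper2 in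
/-- An abelian strongly closed subgroup controls strong fusion. -/
theorem sc_control {G : Type*} [Group G] [Finite G] {p : ℕ} [hp : Fact p.Prime] (P : Sylow p G)
    (W : Subgroup G) (hWc : ∀ a ∈ W, ∀ b ∈ W, a * b = b * a)
    (hsc : Cfsg.IsStronglyClosed W (P : Subgroup G)) (B : Set G)
    (hB : B ⊆ ((P : Subgroup G) : Set G)) (g : G)
    (hg : (fun a => g * a * g⁻¹) '' B ⊆ ((P : Subgroup G) : Set G)) :
    ∃ x ∈ Subgroup.normalizer (W : Set G), ∀ a ∈ B, g * a * g⁻¹ = x * a * x⁻¹ := by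
  have hsub : B ⊆ (((P : Subgroup G) ⊓ ((g⁻¹ • P : Sylow p G) : Subgroup G) : Subgroup G) : Set G) := by
    intro b hb
    refine Subgroup.mem_inf.mpr ⟨hB hb, ?_⟩
    rw [mem_sylow_smul_iff, inv_inv]
    exact hg ⟨b, hb, rfl⟩
  have hdec := (alperin_dec P g⁻¹).mono _ hsub
  obtain ⟨y, hy, h⟩ := dec_control W (AlpSt P) 0 (by
    rintro T₂ x₂ ⟨Q, rfl, hx₂, h1, -, -⟩ -
    exact sc_psi P W hWc hsc _ _ (Nat.lt_succ_self _) inf_le_left h1 x₂ hx₂) _ g⁻¹ hdec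
    (Nat.zero_le _)
  refine ⟨y⁻¹, Subgroup.inv_mem _ hy, fun a ha => ?_⟩
  have := h a ha
  rw [inv_inv] at this ⊢
  exact this

end Cfsg.Agent.Lib.Helper1
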