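import Mathlib
import Cfsg.Agent.Lib.Helper1.StrClosed

set_option autoImplicit false

namespace Cfsg.Agent.Lib.Helper1

/-- Explicit form of the factorization of `N_G(T)`. -/
theorem sc_core2 {G : Type*} [Group G] [Finite G] {p : ℕ} [hp : Fact p.Prime] (P : Sylow p G)
    (W : Subgroup G)
    (hsc : Cfsg.IsStronglyClosed W (P : Subgroup G)) (T N : Subgroup G)
    (hN : N = Subgroup.normalizer (T : Set G)) [hT'n : (T.subgroupOf N).Normal]
    (hTP : T ≤ (P : Subgroup G))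
    (hidx : ¬ p ∣ ((P : Subgroup G) ⊓ N).relIndex N) (x : G) (hx : x ∈ N) :
    ∃ c ∈ Subgroup.centralizer (T : Set G), ∃ y ∈ Subgroup.normalizer
      ((((((P : Subgroup G) ⊓ N).subgroupOf N) ⊓
        chainStab ((T ⊓ W).subgroupOf N) (T.subgroupOf N)).map N.subtype : Subgroup G) : Set G),
        y ∈ Subgroup.normalizer (T : Set G) ∧ x = c * y := by
  classical
  have hTN : T ≤ N := by rw [hN]; exact Subgroup.le_normalizer
  have hnorm : ∀ n ∈ N, ∀ t ∈ T, n * t * n⁻¹ ∈ T := by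
    intro n hn t ht
    rw [hN] at hn
    exact Cfsg.Agent.Lib.Helper7.conj_mem_of_mem_normalizer hn ht
  have hP' : IsPGroup p ↥(((P : Subgroup G) ⊓ N).subgroupOf N) :=
    (P.isPGroup'.to_le inf_le_left).comap_subtype
  have hT'p : IsPGroup p ↥(T.subgroupOf N) := (P.isPGroup'.to_le hTP).comap_subtype
  have hZ' : ∀ n : ↥N, ∀ z ∈ (T ⊓ W).subgroupOf N, n * z * n⁻¹ ∈ (T ⊓ W).subgroupOf N := by
    intro n z hz
    rw [Subgroup.mem_subgroupOf] at hz ⊢
    have h1 : (n : G) * z * (n : G)⁻¹ ∈ T := hnorm n n.2 z hz.1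
    exact ⟨h1, hsc.2 z hz.2 n (hTP h1)⟩
  have hZT' : (T ⊓ W).subgroupOf N ≤ T.subgroupOf N := by
    intro z hz
    rw [Subgroup.mem_subgroupOf] at hz ⊢
    exact hz.1
  obtain ⟨c', hc', y', hy', hxy⟩ := sc_factor (hP'.toSylow hidx) (T.subgroupOf N)
    ((T ⊓ W).subgroupOf N) hT'p hZ' hZT' ⟨x, hx⟩
  have hcoe : ((hP'.toSylow hidx : Sylow p ↥N) : Subgroup ↥N) =
      ((P : Subgroup G) ⊓ N).subgroupOf N := rfl
  rw [hcoe] at hy'
  refine ⟨(c' : G), ?_, (y' : G), ?_, ?_, ?_⟩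
  · rw [Subgroup.mem_centralizer_iff] at hc' ⊢
    intro t ht
    have := hc' ⟨t, hTN ht⟩ (Subgroup.mem_subgroupOf.mpr ht)
    exact congrArg Subtype.val this
  · apply Cfsg.Agent.Lib.Helper6.sy_mem_normalizer_of_conj_le
    rintro _ ⟨g, hg, rfl⟩
    exact ⟨y' * g * y'⁻¹, Cfsg.Agent.Lib.Helper7.conj_mem_of_mem_normalizer hy' hg, rfl⟩
  · rw [← hN]; exact y'.2
  · exact congrArg Subtype.val hxy

open Cfsg.Agent.Lib.Helper2 in
/-- Transport along a decomposition all of whose steps contain a strongly closed `Z`. -/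
theorem dec_control2 {G : Type*} [Group G] (W Z S' : Subgroup G)
    (St : Subgroup G → G → Prop)
    (hSt : ∀ T x, St T x → T ≤ S' ∧ x ∈ Subgroup.normalizer (T : Set G))
    (hZ : ∀ z ∈ Z, ∀ g : G, g * z * g⁻¹ ∈ S' → g * z * g⁻¹ ∈ Z)
    (hstep : ∀ T x, St T x → Z ≤ T →
      ∃ y ∈ Subgroup.normalizer (W : Set G), ∀ t ∈ T, x⁻¹ * t * x = y⁻¹ * t * y)
    (B : Set G) (g : G) (h : Dec St B g) :
    (Z : Set G) ⊆ B →
      ∃ y ∈ Subgroup.normalizer (W : Set G), ∀ b ∈ B, g⁻¹ * b * g = y⁻¹ * b * y := by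
  induction h with
  | nil A => intro _; exact ⟨1, Subgroup.one_mem _, fun b _ => rfl⟩
  | cons A T x g hSt' hA _ ih =>
    intro hZA
    have hZT : Z ≤ T := fun z hz => hA (hZA hz)
    obtain ⟨y₁, hy₁, h1⟩ := hstep T x hSt' hZT
    obtain ⟨hTS, hxT⟩ := hSt T x hSt'
    have hZcj : (Z : Set G) ⊆ cj A x := by
      intro z hz
      rw [mem_cj]
      exact hZA (hZ z hz x (hTS (Cfsg.Agent.Lib.Helper7.conj_mem_of_mem_normalizer hxT (hZT hz))))
    obtain ⟨y₂, hy₂, h2⟩ := ih hZcj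
    refine ⟨y₁ * y₂, Subgroup.mul_mem _ hy₁ hy₂, fun b hb => ?_⟩
    have h3 := h2 (x⁻¹ * b * x) ⟨b, hb, rfl⟩
    calc (x * g)⁻¹ * b * (x * g) = g⁻¹ * (x⁻¹ * b * x) * g := by group
      _ = y₂⁻¹ * (x⁻¹ * b * x) * y₂ := h3
      _ = y₂⁻¹ * (y₁⁻¹ * b * y₁) * y₂ := by rw [h1 b (hA hb)]
      _ = (y₁ * y₂)⁻¹ * b * (y₁ * y₂) := by group

open Cfsg.Agent.Lib.Helper2 in
/-- If `S` has class at most two and `Z(S)` is strongly closed then `N_G(S)` controls strong
fusion in `S`. -/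
theorem sc_class_two {G : Type*} [Group G] [Finite G] {p : ℕ} [hp : Fact p.Prime] (S : Sylow p G)
    (hcl : ⁅(S : Subgroup G), (S : Subgroup G)⁆ ≤
      (S : Subgroup G) ⊓ Subgroup.centralizer ((S : Subgroup G) : Set G))
    (hZ : Cfsg.IsStronglyClosed ((S : Subgroup G) ⊓ Subgroup.centralizer ((S : Subgroup G) : Set G))
      (S : Subgroup G))
    (B : Set G) (hB : B ⊆ ((S : Subgroup G) : Set G)) (g : G)
    (hg : (fun a => g * a * g⁻¹) '' B ⊆ ((S : Subgroup G) : Set G)) :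
    ∃ x ∈ Subgroup.normalizer ((S : Subgroup G) : Set G), ∀ a ∈ B, g * a * g⁻¹ = x * a * x⁻¹ := by
  classical
  have hZc : ∀ a ∈ (S : Subgroup G) ⊓ Subgroup.centralizer ((S : Subgroup G) : Set G),
      ∀ b ∈ (S : Subgroup G) ⊓ Subgroup.centralizer ((S : Subgroup G) : Set G), a * b = b * a := by
    intro a ha b hb
    exact Subgroup.mem_centralizer_iff.mp hb.2 a ha.1
  obtain ⟨x₁, hx₁, h1⟩ := sc_control S _ hZc hZ B hB g hg
  have hsub : B ∪ (((S : Subgroup G) ⊓ Subgroup.centralizer ((S : Subgroup G) : Set G) :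
      Subgroup G) : Set G) ⊆
      (((S : Subgroup G) ⊓ ((x₁⁻¹ • S : Sylow p G) : Subgroup G) : Subgroup G) : Set G) := by
    rintro b (hb | hb)
    · refine Subgroup.mem_inf.mpr ⟨hB hb, ?_⟩
      rw [mem_sylow_smul_iff, inv_inv, ← h1 b hb]
      exact hg ⟨b, hb, rfl⟩
    · refine Subgroup.mem_inf.mpr ⟨hb.1, ?_⟩
      rw [mem_sylow_smul_iff, inv_inv]
      exact (Cfsg.Agent.Lib.Helper7.conj_mem_of_mem_normalizer hx₁ hb).1
  have hdec := (alperin_dec S x₁⁻¹).mono _ hsub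
  obtain ⟨y, hy, h⟩ := dec_control2 (S : Subgroup G)
    ((S : Subgroup G) ⊓ Subgroup.centralizer ((S : Subgroup G) : Set G)) (S : Subgroup G)
    (AlpSt S) (by
      rintro T x ⟨Q, rfl, hx, -⟩
      exact ⟨inf_le_left, hx⟩) hZ.2 (by
      rintro T x ⟨Q, rfl, hx, hidx, -, -⟩ hZT
      -- `S` normalizes `T`
      have hcomm : ∀ s ∈ (S : Subgroup G), ∀ t ∈ (S : Subgroup G) ⊓ (Q : Subgroup G),
          s * t * s⁻¹ * t⁻¹ ∈ (S : Subgroup G) ⊓ Subgroup.centralizer ((S : Subgroup G) : Set G) :=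
        fun s hs t ht => hcl (Subgroup.commutator_mem_commutator hs ht.1)
      have hSN : (S : Subgroup G) ≤ Subgroup.normalizer
          ((((S : Subgroup G) ⊓ (Q : Subgroup G) : Subgroup G)) : Set G) := by
        intro s hs
        apply Cfsg.Agent.Lib.Helper6.sy_mem_normalizer_of_conj_le
        intro t ht
        have e : s * t * s⁻¹ = (s * t * s⁻¹ * t⁻¹) * t := by group
        rw [e]
        exact Subgroup.mul_mem _ (hZT (hcomm s hs t ht)) ht
      obtain ⟨c, hc, y, hyD, hyT, rfl⟩ := sc_core2 S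
        ((S : Subgroup G) ⊓ Subgroup.centralizer ((S : Subgroup G) : Set G)) hZ
        ((S : Subgroup G) ⊓ (Q : Subgroup G)) _ rfl inf_le_left hidx x hx
      have hD : ((((S : Subgroup G) ⊓ Subgroup.normalizer
          ((((S : Subgroup G) ⊓ (Q : Subgroup G) : Subgroup G)) : Set G)).subgroupOf
          (Subgroup.normalizer ((((S : Subgroup G) ⊓ (Q : Subgroup G) : Subgroup G)) : Set G))) ⊓
          chainStab ((((S : Subgroup G) ⊓ (Q : Subgroup G)) ⊓
            ((S : Subgroup G) ⊓ Subgroup.centralizer ((S : Subgroup G) : Set G))).subgroupOf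
            (Subgroup.normalizer ((((S : Subgroup G) ⊓ (Q : Subgroup G) : Subgroup G)) : Set G)))
            (((S : Subgroup G) ⊓ (Q : Subgroup G)).subgroupOf
            (Subgroup.normalizer ((((S : Subgroup G) ⊓ (Q : Subgroup G) : Subgroup G)) : Set G)))).map
          (Subgroup.normalizer ((((S : Subgroup G) ⊓ (Q : Subgroup G) : Subgroup G)) : Set G)).subtype
          = (S : Subgroup G) := by
        apply le_antisymm
        · rintro _ ⟨g', hg', rfl⟩
          exact (Subgroup.mem_subgroupOf.mp hg'.1).1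
        · intro s hs
          refine ⟨⟨s, hSN hs⟩, Subgroup.mem_inf.mpr ⟨?_, ?_⟩, rfl⟩
          · rw [Subgroup.mem_subgroupOf]
            exact ⟨hs, hSN hs⟩
          · rw [mem_chainStab]
            refine ⟨fun z hz => ?_, fun d hd => ?_⟩
            · rw [Subgroup.mem_subgroupOf] at hz
              exact Subtype.ext (Subgroup.mem_centralizer_iff.mp hz.2.2 s hs)
            · rw [Subgroup.mem_subgroupOf] at hd ⊢
              have h2 := hcomm s hs d hd
              exact ⟨hZT h2, h2⟩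
      rw [hD] at hyD
      refine ⟨y, hyD, fun t ht => ?_⟩
      rw [Subgroup.mem_centralizer_iff] at hc
      have h1 : c⁻¹ * t * c = t := by
        rw [mul_assoc, hc t ht]; group
      calc (c * y)⁻¹ * t * (c * y) = y⁻¹ * (c⁻¹ * t * c) * y := by group
        _ = y⁻¹ * t * y := by rw [h1]) _ x₁⁻¹ hdec Set.subset_union_right
  refine ⟨y⁻¹, Subgroup.inv_mem _ hy, fun a ha => ?_⟩
  have := h a (Or.inl ha)
  rw [inv_inv] at this ⊢
  rw [h1 a ha]
  exact this

end Cfsg.Agent.Lib.Helper1
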